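import Mathlib
import Cfsg.Prelude.Def_Classical
import Cfsg.Agent.S0279

/-!
# Extraspecial groups of order 27 and exponent 3 in `PSL₂(q)`, `PSL₃(q)`, `PSU₃(q)` (helper441)

`Heis G` : `G` contains elements `s, e, z` of order dividing 3 with `z ≠ 1` commuting with `s, e` and `[s, e] = z`.
* `not_psl2` : no such elements in `PSL₂(F)`;
* `not_psl3` : `|F| ≡ 2 mod 3`, `PSL₃(F)`;
* `not_psu3` : `q ≡ 1 mod 3`, `PSU₃(q)`.
-/

set_option autoImplicit false

namespace Cfsg.Agent.H441.HeisLin

open Matrix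

/-- `G` contains a Heisenberg group of order 27 -/
def Heis (G : Type*) [Group G] : Prop :=
  ∃ s e z : G, z ≠ 1 ∧ z ^ 3 = 1 ∧ s ^ 3 = 1 ∧ e ^ 3 = 1 ∧ s * e = z * (e * s) ∧ s * z = z * s ∧ e * z = z * e

theorem Heis.of_equiv {G H : Type*} [Group G] [Group H] (f : G ≃* H) (h : Heis G) : Heis H := by
  obtain ⟨s, e, z, h1, h2, h3, h4, h5, h6, h7⟩ := h
  refine ⟨f s, f e, f z, ?_, ?_, ?_, ?_, ?_, ?_, ?_⟩
  · intro h
    exact h1 (f.injective (h.trans f.map_one.symm))
  · rw [← map_pow, h2, map_one]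
  · rw [← map_pow, h3, map_one]
  · rw [← map_pow, h4, map_one]
  · rw [← map_mul, h5, map_mul, map_mul]
  · rw [← map_mul, h6, map_mul]
  · rw [← map_mul, h7, map_mul]

/-! ### dimension two -/

section Two

variable {F : Type*} [Field F]

/-- matrices commuting with a nonscalar `2 × 2` matrix commute -/
theorem comm_of_comm {a x y : Matrix (Fin 2) (Fin 2) F} (ha : ¬ ∃ r : F, a = scalar (Fin 2) r)
    (hx : x * a = a * x) (hy : y * a = a * y) : x * y = y * x := by
  have hx' := fun i j => congrFun (congrFun hx i) j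
  have hy' := fun i j => congrFun (congrFun hy i) j
  have x00 := hx' 0 0
  have x01 := hx' 0 1
  have x10 := hx' 1 0
  have y00 := hy' 0 0
  have y01 := hy' 0 1
  have y10 := hy' 1 0
  simp only [Matrix.mul_apply, Fin.sum_univ_two] at x00 x01 x10 y00 y01 y10
  -- `a` is not scalar
  have hne : a 0 1 ≠ 0 ∨ a 1 0 ≠ 0 ∨ a 0 0 ≠ a 1 1 := by
    by_contra h
    push Not at h
    obtain ⟨h1, h2, h3⟩ := h
    apply ha
    refine ⟨a 0 0, ?_⟩
    ext i j
    fin_cases i <;> fin_cases j
    · simp
    · simpa using h1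
    · simpa using h2
    · simpa using h3.symm
  have e1 : x 0 1 * a 1 0 = a 0 1 * x 1 0 := by linear_combination x00
  have e2 : y 0 1 * a 1 0 = a 0 1 * y 1 0 := by linear_combination y00
  have f1 : x 0 1 * (a 0 0 - a 1 1) = a 0 1 * (x 0 0 - x 1 1) := by linear_combination -x01
  have f2 : y 0 1 * (a 0 0 - a 1 1) = a 0 1 * (y 0 0 - y 1 1) := by linear_combination -y01
  have g1 : x 1 0 * (a 0 0 - a 1 1) = a 1 0 * (x 0 0 - x 1 1) := by linear_combination x10
  have g2 : y 1 0 * (a 0 0 - a 1 1) = a 1 0 * (y 0 0 - y 1 1) := by linear_combination y10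
  -- the vectors `(x01, x10, x00 - x11)` and `(y01, y10, y00 - y11)` are proportional
  have k1 : x 0 1 * y 1 0 = y 0 1 * x 1 0 := by
    rcases hne with h | h | h
    · apply mul_left_cancel₀ h
      linear_combination x 0 1 * (-e2) + y 0 1 * e1
    · apply mul_left_cancel₀ h
      linear_combination y 1 0 * e1 - x 1 0 * e2
    · have h' : a 0 0 - a 1 1 ≠ 0 := sub_ne_zero.2 h
      apply mul_left_cancel₀ (mul_ne_zero h' h')
      linear_combination (y 1 0 * (a 0 0 - a 1 1)) * f1 + (a 0 1 * (x 0 0 - x 1 1)) * g2 -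
        (x 1 0 * (a 0 0 - a 1 1)) * f2 - (a 0 1 * (y 0 0 - y 1 1)) * g1
  have k2 : x 0 1 * (y 0 0 - y 1 1) = y 0 1 * (x 0 0 - x 1 1) := by
    rcases hne with h | h | h
    · apply mul_left_cancel₀ h
      linear_combination x 0 1 * (-f2) + y 0 1 * f1
    · have k3 : x 1 0 * (y 0 0 - y 1 1) = y 1 0 * (x 0 0 - x 1 1) := by
        apply mul_left_cancel₀ h
        linear_combination x 1 0 * (-g2) + y 1 0 * g1
      apply mul_left_cancel₀ h
      linear_combination (y 0 0 - y 1 1) * e1 - (x 0 0 - x 1 1) * e2 + a 0 1 * k3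
    · have h' : a 0 0 - a 1 1 ≠ 0 := sub_ne_zero.2 h
      apply mul_left_cancel₀ h'
      linear_combination (y 0 0 - y 1 1) * f1 - (x 0 0 - x 1 1) * f2
  have k3 : x 1 0 * (y 0 0 - y 1 1) = y 1 0 * (x 0 0 - x 1 1) := by
    rcases hne with h | h | h
    · apply mul_left_cancel₀ h
      linear_combination -(y 0 0 - y 1 1) * e1 + (x 0 0 - x 1 1) * e2 + a 1 0 * k2
    · apply mul_left_cancel₀ h
      linear_combination x 1 0 * (-g2) + y 1 0 * g1
    · have h' : a 0 0 - a 1 1 ≠ 0 := sub_ne_zero.2 h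
      apply mul_left_cancel₀ h'
      linear_combination (y 0 0 - y 1 1) * g1 - (x 0 0 - x 1 1) * g2
  ext i j
  simp only [Matrix.mul_apply, Fin.sum_univ_two]
  fin_cases i <;> fin_cases j
  · simp only [Fin.zero_eta, Fin.isValue]; linear_combination k1
  · simp only [Fin.zero_eta, Fin.isValue, Fin.mk_one]; linear_combination -k2
  · simp only [Fin.zero_eta, Fin.isValue, Fin.mk_one]; linear_combination k3
  · simp only [Fin.isValue, Fin.mk_one]; linear_combination -k1

/-- `PSL₂(F)` contains no Heisenberg group of order 27 -/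
theorem not_psl2 : ¬ Heis (ProjectiveSpecialLinearGroup (Fin 2) F) := by
  rintro ⟨s, e, z, hz1, hz3, hs3, he3, hse, hsz, hez⟩
  let π := QuotientGroup.mk' (Subgroup.center (SpecialLinearGroup (Fin 2) F))
  have hπ : Function.Surjective π := QuotientGroup.mk'_surjective _
  have hker : ∀ c : SpecialLinearGroup (Fin 2) F, π c = 1 → c ^ 2 = 1 ∧ ∀ g, g * c = c * g := by
    intro c hc
    have h1 : c ∈ Subgroup.center (SpecialLinearGroup (Fin 2) F) := (QuotientGroup.eq_one_iff c).1 hc
    refine ⟨?_, fun g => Subgroup.mem_center_iff.1 h1 g⟩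
    obtain ⟨r, hr, hrc⟩ := (Matrix.SpecialLinearGroup.mem_center_iff).1 h1
    rw [Fintype.card_fin] at hr
    apply Matrix.SpecialLinearGroup.ext
    intro i j
    rw [Matrix.SpecialLinearGroup.coe_pow, ← hrc, ← map_pow, hr, map_one]
    rfl
  obtain ⟨s0, rfl⟩ := hπ s
  obtain ⟨e0, rfl⟩ := hπ e
  -- commutator
  obtain ⟨c, hc⟩ := hπ z
  have hcom : ∀ g : SpecialLinearGroup (Fin 2) F, π g * z = z * π g → g * c ^ 2 = c ^ 2 * g := by
    intro g hg
    have h1 : π (g * c * g⁻¹ * c⁻¹) = 1 := by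
      simp only [map_mul, map_inv, hc]
      rw [hg]
      group
    obtain ⟨h2, h3⟩ := hker _ h1
    set d := g * c * g⁻¹ * c⁻¹ with hd
    have h4 : g * c = d * (c * g) := by rw [hd]; group
    have h5 : g * c ^ 2 = c ^ 2 * g := by
      calc g * c ^ 2 = (g * c) * c := by rw [pow_two, mul_assoc]
        _ = (d * (c * g)) * c := by rw [h4]
        _ = d * c * (g * c) := by simp only [mul_assoc]
        _ = d * c * (d * (c * g)) := by rw [h4]
        _ = d * (c * d) * (c * g) := by simp only [mul_assoc]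
        _ = d * (d * c) * (c * g) := by rw [h3 c]
        _ = d ^ 2 * c ^ 2 * g := by simp only [pow_two, mul_assoc]
        _ = c ^ 2 * g := by rw [h2, one_mul]
    exact h5
  have hsc := hcom s0 hsz
  have hec := hcom e0 hez
  -- `c ^ 2` is not scalar
  have hns : ¬ ∃ r : F, ((c ^ 2 : SpecialLinearGroup (Fin 2) F) : Matrix (Fin 2) (Fin 2) F) = scalar (Fin 2) r := by
    rintro ⟨r, hr⟩
    have h1 : c ^ 2 ∈ Subgroup.center (SpecialLinearGroup (Fin 2) F) := by
      rw [Subgroup.mem_center_iff]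
      intro g
      apply Matrix.SpecialLinearGroup.ext
      intro i j
      rw [Matrix.SpecialLinearGroup.coe_mul, Matrix.SpecialLinearGroup.coe_mul, hr]
      have := (Matrix.scalar_commute (n := Fin 2) r (fun r' => mul_comm r r') (g : Matrix (Fin 2) (Fin 2) F)).eq
      rw [this]
    have h2 : π (c ^ 2) = 1 := (QuotientGroup.eq_one_iff _).2 h1
    rw [map_pow, hc] at h2
    apply hz1
    calc z = z ^ 3 * (z ^ 2)⁻¹ := by group
      _ = 1 := by rw [hz3, h2]; group
  have h1 : ((s0 : SpecialLinearGroup (Fin 2) F) : Matrix (Fin 2) (Fin 2) F) * (e0 : Matrix (Fin 2) (Fin 2) F) =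
      (e0 : Matrix (Fin 2) (Fin 2) F) * (s0 : Matrix (Fin 2) (Fin 2) F) := by
    apply comm_of_comm hns
    · rw [← Matrix.SpecialLinearGroup.coe_mul, ← Matrix.SpecialLinearGroup.coe_mul, hsc]
    · rw [← Matrix.SpecialLinearGroup.coe_mul, ← Matrix.SpecialLinearGroup.coe_mul, hec]
  have h2 : s0 * e0 = e0 * s0 := by
    apply Matrix.SpecialLinearGroup.ext
    intro i j
    rw [Matrix.SpecialLinearGroup.coe_mul, Matrix.SpecialLinearGroup.coe_mul, h1]
  apply hz1
  rw [← map_mul, h2, map_mul] at hse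
  exact mul_eq_right.1 hse.symm

end Two

/-! ### dimension three -/

section Three

variable {K V : Type*} [Field K] [AddCommGroup V] [Module K V]

theorem exists_eigen {z : Module.End K V} {μ : K} (hμ : μ ^ 2 + μ + 1 = 0) (hz3 : z * z * z = 1) (hz1 : z ≠ 1) :
    ∃ ν : K, ν ^ 2 + ν + 1 = 0 ∧ ∃ w : V, w ≠ 0 ∧ z w = ν • w := by
  obtain ⟨v, hv⟩ : ∃ v, z v ≠ v := by
    by_contra h
    push Not at h
    exact hz1 (LinearMap.ext h)
  set w := z v - v with hw
  have hw0 : w ≠ 0 := sub_ne_zero.2 hv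
  have h3 : z (z (z v)) = v := by
    have := congrArg (fun f : Module.End K V => f v) hz3
    simpa using this
  have h4 : z (z w) + z w + w = 0 := by
    rw [hw, map_sub, map_sub, h3]
    abel
  by_cases h5 : z w = μ ^ 2 • w
  · refine ⟨μ ^ 2, ?_, w, hw0, h5⟩
    linear_combination (μ ^ 2 - μ + 1) * hμ
  · refine ⟨μ, hμ, z w - μ ^ 2 • w, sub_ne_zero.2 h5, ?_⟩
    have h6 : z (z w) = - z w - w := by
      rw [← sub_eq_zero]
      rw [← h4]
      abel
    rw [map_sub, map_smul, h6]
    have e1 : μ * μ ^ 2 = 1 := by linear_combination (μ - 1) * hμ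
    have e2 : -1 - μ ^ 2 = μ := by linear_combination -hμ
    rw [smul_sub, smul_smul, e1, one_smul]
    have e3 : -z w - w - μ ^ 2 • z w = (-1 - μ ^ 2) • z w - w := by
      rw [sub_smul, neg_smul, one_smul]
      abel
    rw [e3, e2]

theorem exists_common {z e : Module.End K V} {μ : K} (hμ : μ ^ 2 + μ + 1 = 0) (he3 : e * e * e = 1)
    (hez : e * z = z * e) {w : V} (hw : w ≠ 0) (hzw : z w = μ • w) :
    ∃ l : K, l ≠ 0 ∧ ∃ v : V, v ≠ 0 ∧ z v = μ • v ∧ e v = l • v := by
  have hc : ∀ v, z (e v) = e (z v) := by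
    intro v
    have := congrArg (fun f : Module.End K V => f v) hez
    exact this.symm
  have hμ0 : μ ≠ 0 := by
    rintro rfl
    norm_num at hμ
  by_cases h1 : e w - w = 0
  · exact ⟨1, one_ne_zero, w, hw, hzw, by rw [one_smul]; exact sub_eq_zero.1 h1⟩
  have hz1 : z (e w - w) = μ • (e w - w) := by
    rw [map_sub, hc, hzw, map_smul, smul_sub]
  by_cases h2 : e (e w - w) - μ • (e w - w) = 0
  · exact ⟨μ, hμ0, e w - w, h1, hz1, sub_eq_zero.1 h2⟩
  refine ⟨μ ^ 2, pow_ne_zero 2 hμ0, _, h2, ?_, ?_⟩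
  · rw [map_sub, hc, hz1, map_smul, map_smul, hz1]
    simp only [smul_sub]
  · have h3 : e (e (e w)) = w := by
      have := congrArg (fun f : Module.End K V => f w) he3
      simpa using this
    set a := e w - w with ha
    have h4 : e (e a) + e a + a = 0 := by
      rw [ha, map_sub, map_sub, h3]
      abel
    have h6 : e (e a) = - e a - a := by
      rw [← sub_eq_zero]
      rw [← h4]
      abel
    rw [map_sub, map_smul, h6]
    have e1 : μ ^ 2 * μ = 1 := by linear_combination (μ - 1) * hμ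
    have e2 : -1 - μ = μ ^ 2 := by linear_combination -hμ
    rw [smul_sub, smul_smul, e1, one_smul]
    have e3 : -e a - a - μ • e a = (-1 - μ) • e a - a := by
      rw [sub_smul, neg_smul, one_smul]
      abel
    rw [e3, e2]

/-- **the centre of an extraspecial group of order 27 in dimension three is scalar** -/
theorem scalar_of_heis (hV : Module.finrank K V = 3) (h3 : (3 : K) ≠ 0) {μ : K} (hμ : μ ^ 2 + μ + 1 = 0)
    {s e z : Module.End K V} (hz3 : z * z * z = 1) (he3 : e * e * e = 1) (hs3 : s * s * s = 1)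
    (hse : s * e = z * (e * s)) (hsz : s * z = z * s) (hez : e * z = z * e) (hz1 : z ≠ 1) :
    ∃ ν : K, z = ν • (1 : Module.End K V) := by
  obtain ⟨ν, hν, w, hw, hzw⟩ := exists_eigen hμ hz3 hz1
  obtain ⟨l, hl, v, hv, hzv, hev⟩ := exists_common hν he3 hez hw hzw
  have hsv : ∀ u, s (s (s u)) = u := by
    intro u
    have := congrArg (fun f : Module.End K V => f u) hs3
    simpa using this
  have hs0 : ∀ u, u ≠ 0 → s u ≠ 0 := by
    intro u hu h
    apply hu
    rw [← hsv u, h, map_zero, map_zero]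
  have hcsz : ∀ u, z (s u) = s (z u) := by
    intro u
    have := congrArg (fun f : Module.End K V => f u) hsz
    exact this.symm
  have hcez : ∀ u, z (e u) = e (z u) := by
    intro u
    have := congrArg (fun f : Module.End K V => f u) hez
    exact this.symm
  have hcse : ∀ u, s (e u) = z (e (s u)) := by
    intro u
    exact congrArg (fun f : Module.End K V => f u) hse
  have e1 : ν ^ 3 = 1 := by linear_combination (ν - 1) * hν
  have hν0 : ν ≠ 0 := by
    rintro rfl
    norm_num at hν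
  -- the eigenvalue of `s u`
  have step : ∀ (u : V) (k : K), z u = ν • u → e u = k • u → z (s u) = ν • s u ∧ e (s u) = (k * ν ^ 2) • s u := by
    intro u k hzu heu
    have h1 : z (s u) = ν • s u := by rw [hcsz, hzu, map_smul]
    refine ⟨h1, ?_⟩
    have h2 := hcse u
    rw [heu, map_smul, hcez, h1, map_smul] at h2
    rw [mul_smul, smul_comm, h2, smul_smul, ← pow_succ, e1, one_smul]
  obtain ⟨hz1', he1⟩ := step v l hzv hev
  obtain ⟨hz2', he2⟩ := step (s v) _ hz1' he1
  let f : Fin 3 → V := ![v, s v, s (s v)]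
  let m : Fin 3 → K := ![l, l * ν ^ 2, l * ν ^ 2 * ν ^ 2]
  have hν1 : ν ≠ 1 := by
    rintro rfl
    apply h3
    linear_combination hν
  have hν2 : ν ^ 2 ≠ 1 := by
    intro h
    apply hν1
    have : ν = ν ^ 3 := by rw [pow_succ, h, one_mul]
    rw [this, e1]
  have hinj : Function.Injective m := by
    intro i j hij
    have e4 : ν ^ 2 * ν ^ 2 = ν := by linear_combination ν * e1
    have h6 : ν ^ 2 ≠ ν := by
      intro h
      apply hν1
      have : ν * ν = 1 * ν := by rw [one_mul, ← pow_two, h]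
      exact mul_right_cancel₀ hν0 this
    have m0 : m 0 = l * 1 := (mul_one l).symm
    have m1 : m 1 = l * ν ^ 2 := rfl
    have m2 : m 2 = l * ν := by
      change l * ν ^ 2 * ν ^ 2 = l * ν
      rw [mul_assoc, e4]
    fin_cases i <;> fin_cases j
    · rfl
    · have h7 : m 0 = m 1 := hij
      rw [m0, m1] at h7
      exact absurd (mul_left_cancel₀ hl h7).symm hν2
    · have h7 : m 0 = m 2 := hij
      rw [m0, m2] at h7
      exact absurd (mul_left_cancel₀ hl h7).symm hν1
    · have h7 : m 1 = m 0 := hij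
      rw [m0, m1] at h7
      exact absurd (mul_left_cancel₀ hl h7) hν2
    · rfl
    · have h7 : m 1 = m 2 := hij
      rw [m1, m2] at h7
      exact absurd (mul_left_cancel₀ hl h7) h6
    · have h7 : m 2 = m 0 := hij
      rw [m0, m2] at h7
      exact absurd (mul_left_cancel₀ hl h7) hν1
    · have h7 : m 2 = m 1 := hij
      rw [m1, m2] at h7
      exact absurd (mul_left_cancel₀ hl h7).symm h6
    · rfl
  have hli : LinearIndependent K f := by
    apply Module.End.eigenvectors_linearIndependent' e m hinj f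
    intro i
    refine ⟨?_, ?_⟩
    · rw [Module.End.mem_eigenspace_iff]
      fin_cases i
      · exact hev
      · exact he1
      · exact he2
    · fin_cases i
      · exact hv
      · exact hs0 _ hv
      · exact hs0 _ (hs0 _ hv)
  have hfr : Fintype.card (Fin 3) = Module.finrank K V := by rw [hV, Fintype.card_fin]
  have : FiniteDimensional K V := FiniteDimensional.of_finrank_pos (by omega)
  let b := basisOfLinearIndependentOfCardEqFinrank hli hfr
  refine ⟨ν, b.ext fun i => ?_⟩
  have hb : b i = f i := by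
    simp [b]
  rw [hb]
  change z (f i) = ν • f i
  fin_cases i
  · exact hzv
  · exact hz1'
  · exact hz2'

/-- matrix form over an arbitrary field -/
theorem scalar_of_matrix {F : Type*} [Field F] (h3 : (3 : F) ≠ 0) {s e z : Matrix (Fin 3) (Fin 3) F}
    (hz3 : z * z * z = 1) (he3 : e * e * e = 1) (hs3 : s * s * s = 1)
    (hse : s * e = z * (e * s)) (hsz : s * z = z * s) (hez : e * z = z * e) (hz1 : z ≠ 1) :
    ∃ ν : F, z = scalar (Fin 3) ν := by
  classical
  let K := AlgebraicClosure F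
  let φ : Matrix (Fin 3) (Fin 3) F →+* Module.End K (Fin 3 → K) :=
    (Matrix.toLinAlgEquiv' : Matrix (Fin 3) (Fin 3) K ≃ₐ[K] Module.End K (Fin 3 → K)).toRingEquiv.toRingHom.comp
      (RingHom.mapMatrix (algebraMap F K))
  have hφ : Function.Injective φ := by
    intro a b hab
    have h1 : (RingHom.mapMatrix (algebraMap F K)) a = (RingHom.mapMatrix (algebraMap F K)) b :=
      (Matrix.toLinAlgEquiv' : Matrix (Fin 3) (Fin 3) K ≃ₐ[K] Module.End K (Fin 3 → K)).injective hab
    ext i j
    have := congrFun (congrFun h1 i) j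
    exact (algebraMap F K).injective this
  have h3K : (3 : K) ≠ 0 := by
    have h := (map_ne_zero (algebraMap F K)).2 h3
    rwa [map_ofNat] at h
  obtain ⟨μ, hμ⟩ : ∃ μ : K, μ ^ 2 + μ + 1 = 0 := by
    have hdeg : (Polynomial.X ^ 2 + Polynomial.X + 1 : Polynomial K).degree ≠ 0 := by
      have : (Polynomial.X ^ 2 + Polynomial.X + 1 : Polynomial K).degree = 2 := by
        compute_degree!
      rw [this]
      norm_num
    obtain ⟨μ, hμ⟩ := IsAlgClosed.exists_root _ hdeg
    refine ⟨μ, ?_⟩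
    simpa [Polynomial.IsRoot] using hμ
  have hV : Module.finrank K (Fin 3 → K) = 3 := by simp
  have hz1' : φ z ≠ 1 := fun h => hz1 (hφ (h.trans (map_one φ).symm))
  obtain ⟨ν, hν⟩ := scalar_of_heis (s := φ s) (e := φ e) (z := φ z) hV h3K hμ
    (by rw [← map_mul, ← map_mul, hz3, map_one]) (by rw [← map_mul, ← map_mul, he3, map_one])
    (by rw [← map_mul, ← map_mul, hs3, map_one]) (by rw [← map_mul, ← map_mul, ← map_mul, hse])
    (by rw [← map_mul, ← map_mul, hsz]) (by rw [← map_mul, ← map_mul, hez]) hz1'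
  -- back to matrices
  have hentry : ∀ i j, algebraMap F K (z i j) = if i = j then ν else 0 := by
    intro i j
    have h1 := congrArg (fun f : Module.End K (Fin 3 → K) => f (Pi.single j 1) i) hν
    have h2 : φ z (Pi.single j 1) i = algebraMap F K (z i j) := by
      change (Matrix.toLin' ((RingHom.mapMatrix (algebraMap F K)) z)) (Pi.single j 1) i = _
      rw [Matrix.toLin'_apply]
      simp
    have h3 : (ν • (1 : Module.End K (Fin 3 → K))) (Pi.single j 1) i = if i = j then ν else 0 := by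
      change (ν • (Pi.single j 1 : Fin 3 → K)) i = _
      rw [Pi.smul_apply, Pi.single_apply, smul_eq_mul]
      split_ifs <;> simp
    rw [← h2, ← h3]
    exact h1
  refine ⟨z 0 0, ?_⟩
  ext i j
  rw [Matrix.scalar_apply, Matrix.diagonal_apply]
  apply (algebraMap F K).injective
  rw [hentry]
  split_ifs with h
  · rw [hentry, if_pos rfl]
  · rw [map_zero]

/-- `PSL₃(F)`, `|F| ≡ 2 mod 3`, contains no Heisenberg group of order 27 -/
theorem not_psl3 {F : Type*} [Field F] [Fintype F] (hF : Fintype.card F % 3 = 2) :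
    ¬ Heis (ProjectiveSpecialLinearGroup (Fin 3) F) := by
  rintro ⟨s, e, z, hz1, hz3, hs3, he3, hse, hsz, hez⟩
  let π := QuotientGroup.mk' (Subgroup.center (Matrix.SpecialLinearGroup (Fin 3) F))
  have hπ : Function.Surjective π := QuotientGroup.mk'_surjective _
  have h3 : (3 : F) ≠ 0 := by
    intro h
    have h1 : (Fintype.card F : F) = 0 := by simp
    have h2 := Nat.div_add_mod (Fintype.card F) 3
    rw [hF] at h2
    rw [← h2] at h1
    push_cast at h1
    rw [h, zero_mul, zero_add] at h1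
    have h4 : (1 : F) = 0 := by
      calc (1 : F) = 3 - 2 := by norm_num
        _ = 0 := by rw [h, h1]; ring
    exact one_ne_zero h4
  have hroot : ∀ r : F, r ^ 3 = 1 → r = 1 := by
    intro r hr
    have hr0 : r ≠ 0 := by
      rintro rfl
      norm_num at hr
    have h1 : r ^ (Fintype.card F - 1) = 1 := FiniteField.pow_card_sub_one_eq_one r hr0
    obtain ⟨k, hk⟩ : ∃ k, Fintype.card F - 1 = 3 * k + 1 := ⟨(Fintype.card F - 1) / 3, by omega⟩
    rw [hk, pow_succ, pow_mul, hr, one_pow, one_mul] at h1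
    exact h1
  have hcen : ∀ c : Matrix.SpecialLinearGroup (Fin 3) F, π c = 1 → c = 1 := by
    intro c hc
    have h1 : c ∈ Subgroup.center (Matrix.SpecialLinearGroup (Fin 3) F) := (QuotientGroup.eq_one_iff c).1 hc
    obtain ⟨r, hr, hrc⟩ := (Matrix.SpecialLinearGroup.mem_center_iff).1 h1
    rw [Fintype.card_fin] at hr
    apply Matrix.SpecialLinearGroup.ext
    intro i j
    rw [← hrc, hroot r hr, map_one]
    rfl
  have hinj : Function.Injective π := (injective_iff_map_eq_one π).2 hcen
  obtain ⟨s0, rfl⟩ := hπ s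
  obtain ⟨e0, rfl⟩ := hπ e
  obtain ⟨z0, rfl⟩ := hπ z
  have k1 : z0 ^ 3 = 1 := hinj (by rw [map_pow, hz3, map_one])
  have k2 : s0 ^ 3 = 1 := hinj (by rw [map_pow, hs3, map_one])
  have k3 : e0 ^ 3 = 1 := hinj (by rw [map_pow, he3, map_one])
  have k4 : s0 * e0 = z0 * (e0 * s0) := hinj (by rw [map_mul, map_mul, map_mul, hse])
  have k5 : s0 * z0 = z0 * s0 := hinj (by rw [map_mul, map_mul, hsz])
  have k6 : e0 * z0 = z0 * e0 := hinj (by rw [map_mul, map_mul, hez])
  have cube : ∀ g : Matrix.SpecialLinearGroup (Fin 3) F, g ^ 3 = 1 →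
      (g : Matrix (Fin 3) (Fin 3) F) * g * g = 1 := by
    intro g hg
    have := congrArg (fun t : Matrix.SpecialLinearGroup (Fin 3) F => (t : Matrix (Fin 3) (Fin 3) F)) hg
    simp only [pow_succ, pow_zero, one_mul, Matrix.SpecialLinearGroup.coe_mul, Matrix.SpecialLinearGroup.coe_one]
      at this
    exact this
  obtain ⟨r, hr⟩ := scalar_of_matrix h3 (cube z0 k1) (cube e0 k3) (cube s0 k2)
    (by rw [← Matrix.SpecialLinearGroup.coe_mul, ← Matrix.SpecialLinearGroup.coe_mul,
        ← Matrix.SpecialLinearGroup.coe_mul, k4])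
    (by rw [← Matrix.SpecialLinearGroup.coe_mul, ← Matrix.SpecialLinearGroup.coe_mul, k5])
    (by rw [← Matrix.SpecialLinearGroup.coe_mul, ← Matrix.SpecialLinearGroup.coe_mul, k6])
    (by
      intro h
      apply hz1
      have : z0 = 1 := by
        apply Matrix.SpecialLinearGroup.ext
        intro i j
        rw [h]
        rfl
      rw [this, map_one])
  apply hz1
  apply (QuotientGroup.eq_one_iff _).2
  rw [Matrix.SpecialLinearGroup.mem_center_iff]
  refine ⟨r, ?_, hr.symm⟩
  have := z0.2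
  rw [hr, Matrix.scalar_apply, Matrix.det_diagonal, Finset.prod_const, Finset.card_univ] at this
  exact this

/-- `PSU₃(q)`, `q ≡ 1 mod 3`, contains no Heisenberg group of order 27 -/
theorem not_psu3 {F : Type*} [Field F] [Fintype F] {q : ℕ} (hF : Fintype.card F = q ^ 2) (hq : q % 3 = 1) :
    ¬ Heis (Cfsg.PSU 3 F q) := by
  rintro ⟨s, e, z, hz1, hz3, hs3, he3, hse, hsz, hez⟩
  let π := QuotientGroup.mk' (Subgroup.center (Cfsg.SU 3 F q))
  have hπ : Function.Surjective π := QuotientGroup.mk'_surjective _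
  have h3 : (3 : F) ≠ 0 := by
    intro h
    have h1 : (Fintype.card F : F) = 0 := by simp
    have h2 := Nat.div_add_mod (Fintype.card F) 3
    have hF3 : Fintype.card F % 3 = 1 := by rw [hF, Nat.pow_mod, hq]
    rw [hF3] at h2
    rw [← h2] at h1
    push_cast at h1
    rw [h, zero_mul, zero_add] at h1
    exact one_ne_zero h1
  have hcard : Nat.card (Subgroup.center (Cfsg.SU 3 F q)) = 1 := by
    rw [Cfsg.Agent.S0279.result hF 3 le_rfl]
    have : Nat.Coprime 3 (q + 1) := (Nat.prime_three.coprime_iff_not_dvd).2 (by omega)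
    exact this
  have hbot : Subgroup.center (Cfsg.SU 3 F q) = ⊥ := Subgroup.card_eq_one.1 hcard
  have hcen : ∀ c : Cfsg.SU 3 F q, π c = 1 → c = 1 := by
    intro c hc
    have h1 : c ∈ Subgroup.center (Cfsg.SU 3 F q) := (QuotientGroup.eq_one_iff c).1 hc
    rw [hbot] at h1
    exact Subgroup.mem_bot.1 h1
  have hinj : Function.Injective π := (injective_iff_map_eq_one π).2 hcen
  obtain ⟨s0, rfl⟩ := hπ s
  obtain ⟨e0, rfl⟩ := hπ e
  obtain ⟨z0, rfl⟩ := hπ z
  have k1 : z0 ^ 3 = 1 := hinj (by rw [map_pow, hz3, map_one])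
  have k2 : s0 ^ 3 = 1 := hinj (by rw [map_pow, hs3, map_one])
  have k3 : e0 ^ 3 = 1 := hinj (by rw [map_pow, he3, map_one])
  have k4 : s0 * e0 = z0 * (e0 * s0) := hinj (by rw [map_mul, map_mul, map_mul, hse])
  have k5 : s0 * z0 = z0 * s0 := hinj (by rw [map_mul, map_mul, hsz])
  have k6 : e0 * z0 = z0 * e0 := hinj (by rw [map_mul, map_mul, hez])
  let ι : Cfsg.SU 3 F q →* Matrix (Fin 3) (Fin 3) F :=
    { toFun := fun g => ((g : Matrix.SpecialLinearGroup (Fin 3) F) : Matrix (Fin 3) (Fin 3) F)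
      map_one' := rfl
      map_mul' := fun _ _ => rfl }
  have hι : Function.Injective ι := by
    intro a b hab
    apply Subtype.ext
    apply Matrix.SpecialLinearGroup.ext
    intro i j
    exact congrFun (congrFun hab i) j
  have cube : ∀ g : Cfsg.SU 3 F q, g ^ 3 = 1 → ι g * ι g * ι g = 1 := by
    intro g hg
    rw [← map_mul, ← map_mul, ← pow_two, ← pow_succ, hg, map_one]
  obtain ⟨r, hr⟩ := scalar_of_matrix h3 (cube z0 k1) (cube e0 k3) (cube s0 k2)
    (by rw [← map_mul, ← map_mul, ← map_mul, k4]) (by rw [← map_mul, ← map_mul, k5])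
    (by rw [← map_mul, ← map_mul, k6])
    (fun h => hz1 (by
      have : z0 = 1 := hι (h.trans (map_one ι).symm)
      rw [this, map_one]))
  apply hz1
  apply (QuotientGroup.eq_one_iff _).2
  rw [Subgroup.mem_center_iff]
  intro g
  apply hι
  rw [map_mul, map_mul, hr]
  exact (Matrix.scalar_commute (n := Fin 3) r (fun r' => mul_comm r r') (ι g)).eq.symm

end Three

end Cfsg.Agent.H441.HeisLin
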