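import Cfsg.Agent.H441.GLAmal.Simple

/-!
# `3² : GL₂(3)` amalgams: centralizers of elements of order 3

* `no_perfect` : an element of order 3 does not commute with a perfect subgroup of order divisible by 3;
* `no_five` : `c = [a, b] ≠ 1` central in `⟨a, b⟩`, `a³ = b³ = 1` : `c` does not commute with elements of order 5.
-/

set_option autoImplicit false

namespace Cfsg.Agent.H441.GLAmal

open Subgroup
open scoped commutatorElement

variable {G : Type*} [Group G]

theorem card_conj (g : G) (L : Subgroup G) : Nat.card (L.map (MulAut.conj g).toMonoidHom) = Nat.card L := by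
  rw [card_map_of_injective (MulAut.conj g).injective]

namespace Cfg

variable {A B E F S : Subgroup G} {z : G}

/-- commutators of elements of `C(z)` are in `S` -/
theorem comm_cent (C : Cfg A B E F S z) {x y : G} (hx : x * z = z * x) (hy : y * z = z * y) :
    x * y * x⁻¹ * y⁻¹ ∈ S := by
  let K := centralizer ({z} : Set G)
  have hSK : S ≤ K := fun s hs => mem_centralizer_singleton_iff.2 (C.comm_z hs)
  have hn : (S.subgroupOf K).Normal := by
    constructor
    intro k hk g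
    rw [mem_subgroupOf] at hk ⊢
    exact C.norm_S (C.cent_le_norm g.2) hk
  have h27 : Nat.card (S.subgroupOf K) = 27 := by
    rw [← C.cardS]
    exact Nat.card_congr (subgroupOfEquivOfLe hSK).toEquiv
  have h2 : Nat.card (K ⧸ S.subgroupOf K) = 2 := by
    have h1 := card_eq_card_quotient_mul_card_subgroup (S.subgroupOf K)
    have h3 : Nat.card K = 54 := C.card_cent
    rw [h3, h27] at h1
    omega
  have : Fact (Nat.Prime 2) := ⟨Nat.prime_two⟩
  have hcyc : IsCyclic (K ⧸ S.subgroupOf K) := isCyclic_of_prime_card h2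
  have hcm : ∀ a b : K ⧸ S.subgroupOf K, a * b = b * a := (IsCyclic.isMulCommutative (α := K ⧸ S.subgroupOf K)).is_comm.comm
  have hx' : x ∈ K := mem_centralizer_singleton_iff.2 hx
  have hy' : y ∈ K := mem_centralizer_singleton_iff.2 hy
  have h4 := hcm (QuotientGroup.mk ⟨x, hx'⟩) (QuotientGroup.mk ⟨y, hy'⟩)
  rw [← QuotientGroup.mk_mul, ← QuotientGroup.mk_mul, eq_comm, QuotientGroup.eq, mem_subgroupOf] at h4
  have h5 := C.norm_S (C.cent_le_norm (mul_mem hx' hy')) h4
  have h6 : x * y * (((⟨y, hy'⟩ * ⟨x, hx'⟩ : K)⁻¹ * (⟨x, hx'⟩ * ⟨y, hy'⟩) : K) : G) * (x * y)⁻¹ =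
      x * y * x⁻¹ * y⁻¹ := by
    change x * y * ((y * x)⁻¹ * (x * y)) * (x * y)⁻¹ = _
    group
  rwa [h6] at h5

/-- a perfect group centralizing `z` is trivial -/
theorem perfect_z (C : Cfg A B E F S z) {L : Subgroup G} (hp : ⁅L, L⁆ = L) (h : ∀ l ∈ L, l * z = z * l) : L = ⊥ := by
  have h1 : L ≤ S := by
    rw [← hp, commutator_le]
    intro x hx y hy
    exact C.comm_cent (h x hx) (h y hy)
  have h2 : L ≤ zpowers z := by
    conv_lhs => rw [← hp]
    rw [commutator_le]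
    intro x hx y hy
    exact C.comm_mem (h1 hx) (h1 hy)
  rw [eq_bot_iff]
  conv_lhs => rw [← hp]
  rw [commutator_le]
  intro x hx y hy
  rw [mem_bot, commutatorElement_def]
  obtain ⟨i, rfl⟩ := h2 hx
  obtain ⟨j, rfl⟩ := h2 hy
  change z ^ i * z ^ j * (z ^ i)⁻¹ * (z ^ j)⁻¹ = 1
  group

/-- `x ~ z` from `x ~ z^{±1}` -/
theorem conj_of_mem (C : Cfg A B E F S z) {x g : G} (hx1 : x ≠ 1) (h : g * x * g⁻¹ ∈ zpowers z) :
    ∃ k : G, k * z * k⁻¹ = x := by
  rcases C.mem_z h with h | h | h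
  · exfalso
    rw [mul_inv_eq_one] at h
    exact hx1 (mul_eq_left.1 h)
  · exact ⟨g⁻¹, by rw [← h]; group⟩
  · obtain ⟨t, -, ht⟩ := C.exists_conj (inv_mem C.hzE) (inv_ne_one.2 C.hz1)
    refine ⟨g⁻¹ * t, ?_⟩
    calc g⁻¹ * t * z * (g⁻¹ * t)⁻¹ = g⁻¹ * (t * z * t⁻¹) * g := by group
      _ = g⁻¹ * (g * x * g⁻¹) * g := by rw [ht, h]
      _ = x := by group

/-- conjugation of perfect subgroups -/
theorem perfect_conj_z (C : Cfg A B E F S z) {x k : G} (hk : k * z * k⁻¹ = x) {L : Subgroup G} (hp : ⁅L, L⁆ = L)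
    (h : ∀ l ∈ L, l * x = x * l) : L = ⊥ := by
  let φ := (MulAut.conj k⁻¹).toMonoidHom
  have hp' : ⁅L.map φ, L.map φ⁆ = L.map φ := by rw [← map_commutator, hp]
  have h1 : L.map φ = ⊥ := by
    apply C.perfect_z hp'
    rintro y ⟨l, hl, rfl⟩
    change (k⁻¹ * l * k⁻¹⁻¹) * z = z * (k⁻¹ * l * k⁻¹⁻¹)
    have h2 := h l hl
    rw [← hk] at h2
    calc (k⁻¹ * l * k⁻¹⁻¹) * z = k⁻¹ * (l * (k * z * k⁻¹)) * k := by group
      _ = k⁻¹ * ((k * z * k⁻¹) * l) * k := by rw [h2]
      _ = z * (k⁻¹ * l * k⁻¹⁻¹) := by group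
  rw [eq_bot_iff]
  intro l hl
  have h2 : φ l ∈ L.map φ := ⟨l, hl, rfl⟩
  rw [h1, mem_bot] at h2
  have h3 : k⁻¹ * l * k⁻¹⁻¹ = 1 := h2
  rw [mem_bot]
  calc l = k * (k⁻¹ * l * k⁻¹⁻¹) * k⁻¹ := by group
    _ = 1 := by rw [h3]; group

/-- the subgroup `⟨x, z⟩` -/
def VV (x z : G) (h : x * z = z * x) : Subgroup G where
  carrier := {g | ∃ i j : ℤ, g = x ^ i * z ^ j}
  mul_mem' := by
    rintro _ _ ⟨i, j, rfl⟩ ⟨i', j', rfl⟩
    refine ⟨i + i', j + j', ?_⟩
    have hc : Commute x z := h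
    have h1 : z ^ j * x ^ i' = x ^ i' * z ^ j := ((hc.symm.zpow_left j).zpow_right i').eq
    calc x ^ i * z ^ j * (x ^ i' * z ^ j') = x ^ i * (z ^ j * x ^ i') * z ^ j' := by group
      _ = x ^ i * (x ^ i' * z ^ j) * z ^ j' := by rw [h1]
      _ = x ^ (i + i') * z ^ (j + j') := by rw [zpow_add, zpow_add]; group
  one_mem' := ⟨0, 0, by simp⟩
  inv_mem' := by
    rintro _ ⟨i, j, rfl⟩
    refine ⟨-i, -j, ?_⟩
    have hc : Commute x z := h
    have h1 : z ^ (-j) * x ^ (-i) = x ^ (-i) * z ^ (-j) := ((hc.symm.zpow_left _).zpow_right _).eq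
    rw [mul_inv_rev, ← zpow_neg, ← zpow_neg, h1]

theorem VV_comm {x z : G} (h : x * z = z * x) {a b : G} (ha : a ∈ VV x z h) (hb : b ∈ VV x z h) : a * b = b * a := by
  obtain ⟨i, j, rfl⟩ := ha
  obtain ⟨i', j', rfl⟩ := hb
  have hc : Commute x z := h
  have e : ∀ (i j i' j' : ℤ), x ^ i * z ^ j * (x ^ i' * z ^ j') = x ^ (i + i') * z ^ (j + j') := by
    intro i j i' j'
    have h1 : z ^ j * x ^ i' = x ^ i' * z ^ j := ((hc.symm.zpow_left j).zpow_right i').eq
    calc x ^ i * z ^ j * (x ^ i' * z ^ j') = x ^ i * (z ^ j * x ^ i') * z ^ j' := by group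
      _ = x ^ i * (x ^ i' * z ^ j) * z ^ j' := by rw [h1]
      _ = x ^ (i + i') * z ^ (j + j') := by rw [zpow_add, zpow_add]; group
  rw [e, e, add_comm i, add_comm j]

theorem x_mem_VV {x z : G} (h : x * z = z * x) : x ∈ VV x z h := ⟨1, 0, by simp⟩

theorem z_mem_VV {x z : G} (h : x * z = z * x) : z ∈ VV x z h := ⟨0, 1, by simp⟩

/-- the `S`-class of `x` is `x⟨z⟩` -/
theorem exists_conj_mul (C : Cfg A B E F S z) {x : G} (hx : x ∈ S) (hxz : x ∉ zpowers z) (j : ℤ) :
    ∃ s ∈ S, s * x * s⁻¹ = x * z ^ j := by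
  obtain ⟨s, hs, hne⟩ : ∃ s ∈ S, x * s ≠ s * x := by
    by_contra h
    push Not at h
    exact hxz (C.center_S hx h)
  have h1 := C.comm_mem hs hx
  have hcz : Commute s z := C.comm_z hs
  have hcx : Commute x z := C.comm_z hx
  -- `s x s⁻¹ = z^ε x`
  have h2 : ∃ ε : ℤ, (ε = 1 ∨ ε = -1) ∧ s * x * s⁻¹ = z ^ ε * x := by
    rcases C.mem_z h1 with h | h | h
    · exfalso
      rw [mul_inv_eq_one] at h
      exact hne (mul_inv_eq_iff_eq_mul.1 h).symm
    · exact ⟨1, Or.inl rfl, by rw [zpow_one]; exact mul_inv_eq_iff_eq_mul.1 h⟩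
    · exact ⟨-1, Or.inr rfl, by rw [zpow_neg, zpow_one]; exact mul_inv_eq_iff_eq_mul.1 h⟩
  obtain ⟨ε, hε, h3⟩ := h2
  have hpow : ∀ n : ℕ, s ^ n * x * (s ^ n)⁻¹ = z ^ (n * ε) * x := by
    intro n
    induction n with
    | zero => simp
    | succ n ih =>
      have h4 : s ^ (n + 1) * x * (s ^ (n + 1))⁻¹ = s * (s ^ n * x * (s ^ n)⁻¹) * s⁻¹ := by
        rw [pow_succ']; group
      rw [h4, ih]
      have h5 : s * (z ^ ((n : ℤ) * ε) * x) * s⁻¹ = z ^ ((n : ℤ) * ε) * (s * x * s⁻¹) := by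
        have h6 : s * z ^ ((n : ℤ) * ε) = z ^ ((n : ℤ) * ε) * s := (hcz.zpow_right _).eq
        calc s * (z ^ ((n : ℤ) * ε) * x) * s⁻¹ = (s * z ^ ((n : ℤ) * ε)) * x * s⁻¹ := by group
          _ = z ^ ((n : ℤ) * ε) * (s * x * s⁻¹) := by rw [h6]; group
      rw [h5, h3, ← mul_assoc, ← zpow_add]
      congr 2
      push_cast
      ring
  -- reduce `j` mod 3
  have h3' : z ^ (3 : ℤ) = 1 := by exact_mod_cast C.z3
  have hred : ∀ a b : ℤ, (3 : ℤ) ∣ a - b → z ^ a = z ^ b := by
    intro a b ⟨m, hm⟩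
    have : a = b + 3 * m := by omega
    rw [this, zpow_add, zpow_mul, h3', one_zpow, mul_one]
  have hn : ∃ n : ℕ, (3 : ℤ) ∣ (n : ℤ) * ε - j := by
    rcases hε with rfl | rfl
    · refine ⟨(j % 3).toNat, ?_⟩
      have : ((j % 3).toNat : ℤ) = j % 3 := Int.toNat_of_nonneg (by omega)
      rw [this]
      omega
    · refine ⟨((-j) % 3).toNat, ?_⟩
      have : (((-j) % 3).toNat : ℤ) = (-j) % 3 := Int.toNat_of_nonneg (by omega)
      rw [this]
      omega
  obtain ⟨n, hn⟩ := hn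
  refine ⟨s ^ n, pow_mem hs n, ?_⟩
  rw [hpow n, hred _ j hn]
  exact (hcx.zpow_right j).eq.symm

/-- elements of order 3 outside the class of `z` -/
theorem perfect_d [Finite G] (C : Cfg A B E F S z) {x : G} (hx : x ∈ S) (hx1 : x ≠ 1)
    (hnz : ∀ k : G, k * z * k⁻¹ ≠ x) {L : Subgroup G} (hp : ⁅L, L⁆ = L) (h : ∀ l ∈ L, l * x = x * l) :
    ¬ 3 ∣ Nat.card L := by
  classical
  have hp3 : Fact (Nat.Prime 3) := ⟨Nat.prime_three⟩
  have hxz : x ∉ zpowers z := by
    intro h1
    obtain ⟨k, hk⟩ := C.conj_of_mem (x := x) (g := 1) hx1 (by simpa using h1)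
    exact hnz k hk
  have hxE : x ∉ E := by
    intro h1
    obtain ⟨k, -, hk⟩ := C.exists_conj h1 hx1
    exact hnz k hk
  have hxF : x ∉ F := by
    intro h1
    obtain ⟨k, -, hk⟩ := C.symm.exists_conj h1 hx1
    exact hnz k hk
  have hc := C.comm_z hx
  let V := VV x z hc
  have hVS : V ≤ S := by
    rintro _ ⟨i, j, rfl⟩
    exact mul_mem (zpow_mem hx i) (zpow_mem (C.hES C.hzE) j)
  have hfS := C.finS
  have hfV : Finite V := Finite.Set.subset (S : Set G) hVS
  have hV9 : Nat.card V = 9 := by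
    have h1 : Nat.card V ∣ 27 := C.cardS ▸ card_dvd_of_le hVS
    have h2 : 3 ∣ Nat.card V := C.cardz ▸ card_dvd_of_le (zpowers_le.2 (z_mem_VV hc))
    have h3 : Nat.card V ≠ 3 := by
      intro h3
      have h4 : zpowers z = V := eq_of_le_of_card_ge (zpowers_le.2 (z_mem_VV hc)) (by rw [h3, C.cardz])
      exact hxz (h4 ▸ x_mem_VV hc)
    have h4 : Nat.card V ≠ 27 := by
      intro h4
      have h5 : V = S := eq_of_le_of_card_ge hVS (by rw [h4, C.cardS])
      obtain ⟨e, he, s, hs, -, hne⟩ := C.exists_ne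
      have h6 : s ∈ V := h5 ▸ hs
      have h7 : e ∈ V := h5 ▸ (C.hES he)
      exact hne (VV_comm hc h6 h7)
    generalize Nat.card V = c at *
    have h6 := Nat.le_of_dvd (by norm_num) h1
    interval_cases c <;> omega
  let K := centralizer ({x} : Set G)
  have hVK : V ≤ K := fun v hv => mem_centralizer_singleton_iff.2 (VV_comm hc hv (x_mem_VV hc))
  have hVp : IsPGroup 3 (V.subgroupOf K) := IsPGroup.of_card (n := 2) (by
    rw [Nat.card_congr (subgroupOfEquivOfLe hVK).toEquiv, hV9]; norm_num)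
  obtain ⟨Q, hQ⟩ := hVp.exists_le_sylow
  -- `Q` as a subgroup of `G`
  let Q' : Subgroup G := (Q : Subgroup K).map K.subtype
  have hQp : IsPGroup 3 Q' := Q.2.map _
  have hVQ : V ≤ Q' := by
    intro v hv
    exact ⟨⟨v, hVK hv⟩, hQ (by rw [mem_subgroupOf]; exact hv), rfl⟩
  obtain ⟨g, hg⟩ := C.exists_conj_le hQp
  have hQ'c : Nat.card Q' = Nat.card (Q : Subgroup K) := card_map_of_injective K.subtype_injective
  have hQ9 : Nat.card Q' = 9 := by
    have h0 : (Q'.map (MulAut.conj g).toMonoidHom) ≤ S := by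
      rintro _ ⟨q, hq, rfl⟩
      exact hg q hq
    have h1 : Nat.card Q' ∣ 27 := by
      rw [← C.cardS, ← card_conj g Q']
      exact card_dvd_of_le h0
    have h2 : 9 ∣ Nat.card Q' := hV9 ▸ card_dvd_of_le hVQ
    by_contra h3
    have h4 := nat27 h1 h2 h3
    have h5 : Q'.map (MulAut.conj g).toMonoidHom = S := by
      apply eq_of_le_of_card_ge h0
      rw [C.cardS]
      exact le_of_eq (h4.symm.trans (card_conj g Q').symm)
    have h6 : g * x * g⁻¹ ∈ zpowers z := by
      apply C.center_S (hg x (hVQ (x_mem_VV hc)))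
      intro s hs
      rw [← h5] at hs
      obtain ⟨q, ⟨q', -, rfl⟩, rfl⟩ := hs
      have h7 := mem_centralizer_singleton_iff.1 q'.2
      change g * x * g⁻¹ * (g * q' * g⁻¹) = g * q' * g⁻¹ * (g * x * g⁻¹)
      calc g * x * g⁻¹ * (g * q' * g⁻¹) = g * (x * q') * g⁻¹ := by group
        _ = g * (q' * x) * g⁻¹ := by rw [h7]
        _ = g * q' * g⁻¹ * (g * x * g⁻¹) := by group
    obtain ⟨k, hk⟩ := C.conj_of_mem hx1 h6
    exact hnz k hk
  have hQV : Q' = V := by
    have hf : Finite Q' := Nat.finite_of_card_ne_zero (by rw [hQ9]; norm_num)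
    exact (eq_of_le_of_card_ge hVQ (by rw [hQ9, hV9])).symm
  -- the normalizer of `Q` centralizes `Q`
  have hnorm : ∀ n : G, n * x = x * n → n * z * n⁻¹ ∈ V → n * z = z * n := by
    intro n hnx hnz'
    -- `n` normalizes `⟨z⟩`
    have h1 : n * z * n⁻¹ ∈ zpowers z := by
      by_contra hcon
      obtain ⟨i, j, hij⟩ := hnz'
      have h3' : x ^ (3 : ℤ) = 1 := by exact_mod_cast C.exp_S hx
      have hi := Int.emod_add_mul_ediv i 3
      have h5 : x ^ i = x ^ (i % 3) := by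
        conv_lhs => rw [← hi]
        rw [zpow_add, zpow_mul, h3', one_zpow, mul_one]
      have h6 : i % 3 = 0 ∨ i % 3 = 1 ∨ i % 3 = 2 := by omega
      rcases h6 with h6 | h6 | h6
      · apply hcon
        rw [hij, h5, h6, zpow_zero, one_mul]
        exact ⟨j, rfl⟩
      · obtain ⟨s, -, hs⟩ := C.exists_conj_mul hx hxz j
        apply hnz (s⁻¹ * n)
        calc s⁻¹ * n * z * (s⁻¹ * n)⁻¹ = s⁻¹ * (n * z * n⁻¹) * s := by group
          _ = s⁻¹ * (x * z ^ j) * s := by rw [hij, h5, h6, zpow_one]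
          _ = s⁻¹ * (s * x * s⁻¹) * s := by rw [hs]
          _ = x := by group
      · -- `x⁻¹`
        have h7 : x ^ (i % 3) = x⁻¹ := by
          rw [h6]
          have : x ^ (2 : ℤ) = x ^ (3 : ℤ) * x⁻¹ := by group
          rw [this, h3', one_mul]
        obtain ⟨s, hs0, hs⟩ := C.exists_conj_mul hx hxz (-j)
        have h8 : s * x⁻¹ * s⁻¹ = x⁻¹ * z ^ j := by
          have hcx : Commute x z := C.comm_z hx
          calc s * x⁻¹ * s⁻¹ = (s * x * s⁻¹)⁻¹ := by group
            _ = (x * z ^ (-j))⁻¹ := by rw [hs]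
            _ = z ^ j * x⁻¹ := by rw [mul_inv_rev, ← zpow_neg, neg_neg]
            _ = x⁻¹ * z ^ j := (hcx.inv_left.zpow_right j).eq.symm
        obtain ⟨t, -, ht⟩ := C.exists_conj (inv_mem C.hzE) (inv_ne_one.2 C.hz1)
        have h9 : s⁻¹ * n * z * (s⁻¹ * n)⁻¹ = x⁻¹ := by
          calc s⁻¹ * n * z * (s⁻¹ * n)⁻¹ = s⁻¹ * (n * z * n⁻¹) * s := by group
            _ = s⁻¹ * (x⁻¹ * z ^ j) * s := by rw [hij, h5, h7]
            _ = s⁻¹ * (s * x⁻¹ * s⁻¹) * s := by rw [h8]
            _ = x⁻¹ := by group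
        apply hnz (s⁻¹ * n * t)
        calc s⁻¹ * n * t * z * (s⁻¹ * n * t)⁻¹ = (s⁻¹ * n) * (t * z * t⁻¹) * (s⁻¹ * n)⁻¹ := by group
          _ = (s⁻¹ * n * z * (s⁻¹ * n)⁻¹)⁻¹ := by rw [ht]; group
          _ = x := by rw [h9, inv_inv]
    rcases C.mem_z h1 with h2 | h2 | h2
    · exfalso
      rw [mul_inv_eq_one] at h2
      exact C.hz1 (mul_eq_left.1 h2)
    · exact mul_inv_eq_iff_eq_mul.1 h2
    · exfalso
      have hnN : n ∈ normalizer (zpowers z : Set G) := C.mem_norm_iff.2 (Or.inr h2)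
      have hnA := (C.norm hnN).1
      have hnB := (C.norm hnN).2
      -- `n` inverts `E / ⟨z⟩`
      have hinv : ∀ (K' : Subgroup G), (∀ e ∈ K', e ∈ S) → (∀ e ∈ K', n * e * n⁻¹ ∈ K') →
          (∀ e ∈ K', x * e = e * x → e ∈ zpowers z) → ∀ e ∈ K', n * e * n⁻¹ * e ∈ zpowers z := by
        intro K' hK1 hK2 hK3 e he
        apply hK3 _ (mul_mem (hK2 e he) he)
        -- `[x, n e n⁻¹] = n [x, e] n⁻¹ = [x, e]⁻¹`
        have h3 := C.comm_mem hx (hK1 e he)
        obtain ⟨k, hk⟩ := h3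
        have hk : z ^ k = x * e * x⁻¹ * e⁻¹ := hk
        have h4 : x * (n * e * n⁻¹) * x⁻¹ * (n * e * n⁻¹)⁻¹ = z ^ (-k) := by
          have hx' : n⁻¹ * x * n = x := by
            rw [mul_assoc, ← hnx]; group
          have h5 : x = n * x * n⁻¹ := by rw [hnx]; group
          calc x * (n * e * n⁻¹) * x⁻¹ * (n * e * n⁻¹)⁻¹
              = n * ((n⁻¹ * x * n) * e * (n⁻¹ * x * n)⁻¹ * e⁻¹) * n⁻¹ := by group
            _ = n * (x * e * x⁻¹ * e⁻¹) * n⁻¹ := by rw [hx']
            _ = n * z ^ k * n⁻¹ := by rw [hk]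
            _ = (n * z * n⁻¹) ^ k := conj_zpow.symm
            _ = z ^ (-k) := by rw [h2, inv_zpow, zpow_neg]
        have hcz : ∀ w ∈ S, ∀ m : ℤ, w * z ^ m = z ^ m * w := by
          intro w hw m
          have h2 : Commute w z := C.comm_z hw
          exact (h2.zpow_right m).eq
        have h5 : x * (n * e * n⁻¹) = z ^ (-k) * (n * e * n⁻¹) * x := by
          rw [← h4]; group
        have h6 : x * e = z ^ k * e * x := by
          rw [hk]; group
        calc x * (n * e * n⁻¹ * e) = (x * (n * e * n⁻¹)) * e := by group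
          _ = z ^ (-k) * (n * e * n⁻¹) * (x * e) := by rw [h5]; group
          _ = z ^ (-k) * ((n * e * n⁻¹) * z ^ k) * e * x := by rw [h6]; group
          _ = z ^ (-k) * (z ^ k * (n * e * n⁻¹)) * e * x := by rw [hcz _ (hK1 _ (hK2 e he))]
          _ = n * e * n⁻¹ * e * x := by group
      have hE' : ∀ e ∈ E, x * e = e * x → e ∈ zpowers z := by
        intro e he h3
        by_contra h4
        exact hxE (C.mem_E_of_comm (C.hSA hx) hc he h4 h3)
      have hF' : ∀ e ∈ F, x * e = e * x → e ∈ zpowers z := by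
        intro e he h3
        by_contra h4
        exact hxF (C.symm.mem_E_of_comm (C.hSB hx) hc he h4 h3)
      -- the set of elements of `S` inverted modulo `⟨z⟩`
      let W : Subgroup G :=
        { carrier := {s | s ∈ S ∧ n * s * n⁻¹ * s ∈ zpowers z}
          mul_mem' := by
            rintro a b ⟨ha, ha2⟩ ⟨hb, hb2⟩
            refine ⟨mul_mem ha hb, ?_⟩
            obtain ⟨i, hi⟩ := ha2
            have hi : z ^ i = n * a * n⁻¹ * a := hi
            obtain ⟨j, hj⟩ := hb2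
            have hj : z ^ j = n * b * n⁻¹ * b := hj
            obtain ⟨k, hk⟩ := C.comm_mem (inv_mem ha) (inv_mem hb)
            have hk : z ^ k = a⁻¹ * b⁻¹ * a⁻¹⁻¹ * b⁻¹⁻¹ := hk
            have hcz : ∀ w ∈ S, ∀ m : ℤ, w * z ^ m = z ^ m * w := by
              intro w hw m
              have h2 : Commute w z := C.comm_z hw
              exact (h2.zpow_right m).eq
            refine ⟨i + j + k, ?_⟩
            change z ^ (i + j + k) = n * (a * b) * n⁻¹ * (a * b)
            have e1 : n * a * n⁻¹ = z ^ i * a⁻¹ := by rw [hi]; group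
            have e2 : n * b * n⁻¹ = z ^ j * b⁻¹ := by rw [hj]; group
            calc z ^ (i + j + k) = z ^ i * z ^ j * z ^ k := by rw [zpow_add, zpow_add]
              _ = z ^ i * z ^ j * (a⁻¹ * b⁻¹ * a⁻¹⁻¹ * b⁻¹⁻¹) := by rw [hk]
              _ = z ^ i * (z ^ j * a⁻¹) * b⁻¹ * a * b := by group
              _ = z ^ i * (a⁻¹ * z ^ j) * b⁻¹ * a * b := by rw [hcz _ (inv_mem ha)]
              _ = (z ^ i * a⁻¹) * (z ^ j * b⁻¹) * (a * b) := by group
              _ = (n * a * n⁻¹) * (n * b * n⁻¹) * (a * b) := by rw [e1, e2]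
              _ = n * (a * b) * n⁻¹ * (a * b) := by group
          one_mem' := ⟨one_mem _, by simp [one_mem]⟩
          inv_mem' := by
            rintro a ⟨ha, ha2⟩
            refine ⟨inv_mem ha, ?_⟩
            obtain ⟨i, hi⟩ := ha2
            have hi : z ^ i = n * a * n⁻¹ * a := hi
            refine ⟨-i, ?_⟩
            change z ^ (-i) = n * a⁻¹ * n⁻¹ * a⁻¹
            have hcz : ∀ w ∈ S, ∀ m : ℤ, w * z ^ m = z ^ m * w := by
              intro w hw m
              have h2 : Commute w z := C.comm_z hw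
              exact (h2.zpow_right m).eq
            have e1 : n * a * n⁻¹ = z ^ i * a⁻¹ := by rw [hi]; group
            calc z ^ (-i) = a * (z ^ (-i)) * a⁻¹ := by rw [hcz a ha]; group
              _ = (z ^ i * a⁻¹)⁻¹ * a⁻¹ := by rw [mul_inv_rev, ← zpow_neg, inv_inv]
              _ = (n * a * n⁻¹)⁻¹ * a⁻¹ := by rw [e1]
              _ = n * a⁻¹ * n⁻¹ * a⁻¹ := by group }
      have hW : E ⊔ F ≤ W := by
        rw [sup_le_iff]
        exact ⟨fun e he => ⟨C.hES he, hinv E (fun e he => C.hES he) (fun e he => C.sA.conj_mem n hnA e he) hE' e he⟩,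
          fun e he => ⟨C.hFS he, hinv F (fun e he => C.hFS he) (fun e he => C.sB.conj_mem n hnB e he) hF' e he⟩⟩
      rw [C.sup_eq] at hW
      have h3 := (hW hx).2
      have h4 : n * x * n⁻¹ * x = x * x := by rw [hnx]; group
      rw [h4] at h3
      apply hxz
      have h5 : x = (x * x)⁻¹ := by
        have h6 := C.exp_S hx
        rw [eq_comm, inv_eq_iff_mul_eq_one]
        rw [pow_succ, pow_two] at h6
        exact h6
      rw [h5]
      exact inv_mem h3
  have hQn : normalizer ((Q : Subgroup K) : Set K) ≤ centralizer ((Q : Subgroup K) : Set K) := by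
    intro n hn
    have hzQ : (⟨z, hVK (z_mem_VV hc)⟩ : K) ∈ (Q : Subgroup K) := hQ (by rw [mem_subgroupOf]; exact z_mem_VV hc)
    have h1 := (mem_normalizer_iff.1 hn _).1 hzQ
    have h2 : (n : G) * z * (n : G)⁻¹ ∈ V := by
      rw [← hQV]
      exact ⟨_, h1, rfl⟩
    have hnx : (n : G) * x = x * n := mem_centralizer_singleton_iff.1 n.2
    have h3 := hnorm n hnx h2
    rw [mem_centralizer_iff]
    intro q hq
    have h4 : (q : G) ∈ V := by
      rw [← hQV]
      exact ⟨q, hq, rfl⟩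
    obtain ⟨i, j, hij⟩ := h4
    apply Subtype.ext
    change (q : G) * n = n * q
    rw [hij]
    have c1 : Commute (n : G) x := hnx
    have c2 : Commute (n : G) z := h3
    exact ((c1.zpow_right i).mul_right (c2.zpow_right j)).eq.symm
  -- transfer
  have hker := MonoidHom.not_dvd_card_ker_transferSylow Q hQn
  let N : Subgroup G := (MonoidHom.transferSylow Q hQn).ker.map K.subtype
  have hLN : L ≤ N := by
    conv_lhs => rw [← hp]
    rw [commutator_le]
    intro a ha b hb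
    have haK : a ∈ K := mem_centralizer_singleton_iff.2 (h a ha)
    have hbK : b ∈ K := mem_centralizer_singleton_iff.2 (h b hb)
    refine ⟨⁅(⟨a, haK⟩ : K), ⟨b, hbK⟩⁆, ?_, rfl⟩
    change (MonoidHom.transferSylow Q hQn) ⁅(⟨a, haK⟩ : K), ⟨b, hbK⟩⁆ = 1
    rw [map_commutatorElement, commutatorElement_def]
    have hcomm : ∀ p q : (Q : Subgroup K), p * q = q * p := by
      intro p q
      have := mem_centralizer_iff.1 (hQn (le_normalizer q.2)) p p.2
      exact Subtype.ext this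
    rw [hcomm ((MonoidHom.transferSylow Q hQn) ⟨a, haK⟩)]
    group
  intro h3
  apply hker
  have h4 : Nat.card N = Nat.card (MonoidHom.transferSylow Q hQn).ker := card_map_of_injective K.subtype_injective
  rw [← h4]
  exact h3.trans (card_dvd_of_le hLN)

/-- **an element of order 3 does not commute with a perfect group of order divisible by 3** -/
theorem no_perfect [Finite G] (C : Cfg A B E F S z) {x : G} (hx : orderOf x = 3) {L : Subgroup G} (hp : ⁅L, L⁆ = L)
    (h : ∀ l ∈ L, l * x = x * l) : ¬ 3 ∣ Nat.card L := by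
  have hx1 : x ≠ 1 := by
    rintro rfl
    rw [orderOf_one] at hx
    omega
  by_cases hk : ∃ k : G, k * z * k⁻¹ = x
  · obtain ⟨k, hk⟩ := hk
    have := C.perfect_conj_z hk hp h
    rw [this, card_bot]
    omega
  · push Not at hk
    have hP : IsPGroup 3 (zpowers x) := IsPGroup.of_card (n := 1) (by rw [Nat.card_zpowers, hx]; norm_num)
    obtain ⟨g, hg⟩ := C.exists_conj_le hP
    have hgx := hg x (mem_zpowers x)
    have hL : Nat.card (L.map (MulAut.conj g).toMonoidHom) = Nat.card L := card_conj g L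
    rw [← hL]
    apply C.perfect_d hgx
    · intro h1
      rw [mul_inv_eq_one] at h1
      exact hx1 (mul_eq_left.1 h1)
    · intro k hk'
      apply hk (g⁻¹ * k)
      calc g⁻¹ * k * z * (g⁻¹ * k)⁻¹ = g⁻¹ * (k * z * k⁻¹) * g := by group
        _ = x := by rw [hk']; group
    · rw [← map_commutator, hp]
    · rintro y ⟨l, hl, rfl⟩
      change g * l * g⁻¹ * (g * x * g⁻¹) = g * x * g⁻¹ * (g * l * g⁻¹)
      calc g * l * g⁻¹ * (g * x * g⁻¹) = g * (l * x) * g⁻¹ := by group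
        _ = g * (x * l) * g⁻¹ := by rw [h l hl]
        _ = _ := by group

/-- **the centre of a nonabelian `⟨a, b⟩` of exponent 3 does not commute with an element of order 5** -/
theorem no_five [Finite G] (C : Cfg A B E F S z) {a b c u : G} (ha : a ^ 3 = 1) (hb : b ^ 3 = 1)
    (hc : a * b = c * (b * a)) (hc1 : c ≠ 1) (hca : c * a = a * c) (hcb : c * b = b * c) (hc3 : c ^ 3 = 1)
    (hu : u ^ 5 = 1) (hu1 : u ≠ 1) (huc : u * c = c * u) : False := by
  -- `⟨a, b⟩` is a 3-group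
  have hH1 : ∀ x ∈ closure {a, b}, x * c = c * x := by
    have : closure {a, b} ≤ centralizer {c} := by
      rw [closure_le]
      rintro y (rfl | rfl)
      · exact mem_centralizer_singleton_iff.2 hca.symm
      · exact mem_centralizer_singleton_iff.2 hcb.symm
    exact fun x hx => mem_centralizer_singleton_iff.1 (this hx)
  -- for a fixed `y` commuting with `c`, the `x` with `x y x⁻¹ = c^k y`
  let D (y : G) (hy : y * c = c * y) : Subgroup G :=
    { carrier := {x | x * c = c * x ∧ ∃ k : ℤ, x * y * x⁻¹ = c ^ k * y}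
      mul_mem' := by
        rintro x x' ⟨hx, k, hk⟩ ⟨hx', k', hk'⟩
        refine ⟨by rw [mul_assoc, hx', ← mul_assoc, hx, mul_assoc], k' + k, ?_⟩
        have h1 : x * c ^ k' = c ^ k' * x := ((show Commute x c from hx).zpow_right k').eq
        calc x * x' * y * (x * x')⁻¹ = x * (x' * y * x'⁻¹) * x⁻¹ := by group
          _ = (x * c ^ k') * y * x⁻¹ := by rw [hk']; group
          _ = c ^ k' * (x * y * x⁻¹) := by rw [h1]; group
          _ = c ^ (k' + k) * y := by rw [hk, zpow_add]; group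
      one_mem' := ⟨by simp, 0, by simp⟩
      inv_mem' := by
        rintro x ⟨hx, k, hk⟩
        have hcom : Commute x c := hx
        refine ⟨hcom.inv_left.eq, -k, ?_⟩
        have h1 : x⁻¹ * c ^ (-k) = c ^ (-k) * x⁻¹ := (hcom.inv_left.zpow_right (-k)).eq
        have h2 : y = c ^ (-k) * (x * y * x⁻¹) := by rw [hk]; group
        calc x⁻¹ * y * x⁻¹⁻¹ = x⁻¹ * (c ^ (-k) * (x * y * x⁻¹)) * x := by rw [← h2]; group
          _ = (x⁻¹ * c ^ (-k)) * (x * y * x⁻¹) * x := by group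
          _ = (c ^ (-k) * x⁻¹) * (x * y * x⁻¹) * x := by rw [h1]
          _ = c ^ (-k) * y := by group }
  have hab : a * b * a⁻¹ = c ^ (1 : ℤ) * b := by rw [zpow_one, hc]; group
  have hcz : ∀ (x y : G) (k : ℤ), x * c = c * x → x * y * x⁻¹ = c ^ k * y → y * c = c * y →
      y * x * y⁻¹ = c ^ (-k) * x := by
    intro x y k hx h1 hy
    have h2 : x * y = c ^ k * y * x := by rw [← h1]; group
    have h3 : y * x = c ^ (-k) * (x * y) := by rw [h2]; group
    rw [h3]; group
  have hH2 : ∀ x ∈ closure {a, b}, ∀ y ∈ closure {a, b}, ∃ k : ℤ, x * y * x⁻¹ = c ^ k * y := by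
    intro x hx y hy
    -- first `y = a` or `y = b`
    have hga : closure {a, b} ≤ D a hca.symm := by
      rw [closure_le]
      rintro w (rfl | rfl)
      · exact ⟨hca.symm, 0, by simp⟩
      · exact ⟨hcb.symm, _, hcz _ _ _ hca.symm hab hcb.symm⟩
    have hgb : closure {a, b} ≤ D b hcb.symm := by
      rw [closure_le]
      rintro w (rfl | rfl)
      · exact ⟨hca.symm, 1, hab⟩
      · exact ⟨hcb.symm, 0, by simp⟩
    have hgx : closure {a, b} ≤ D x (hH1 x hx) := by
      rw [closure_le]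
      rintro w (rfl | rfl)
      · obtain ⟨h1, k, h2⟩ := hga hx
        exact ⟨hca.symm, _, hcz _ _ _ h1 h2 hca.symm⟩
      · obtain ⟨h1, k, h2⟩ := hgb hx
        exact ⟨hcb.symm, _, hcz _ _ _ h1 h2 hcb.symm⟩
    obtain ⟨h1, k, h2⟩ := hgx hy
    exact ⟨_, hcz _ _ _ h1 h2 (hH1 x hx)⟩
  have hc3' : c ^ (3 : ℤ) = 1 := by exact_mod_cast hc3
  have hpow3 : ∀ k : ℤ, (c ^ k) ^ 3 = 1 := by
    intro k
    rw [← zpow_natCast, ← zpow_mul, mul_comm, zpow_mul]
    norm_num
    rw [hc3, one_zpow]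
  have hH3 : ∀ x ∈ closure {a, b}, x ^ 3 = 1 := by
    let K : Subgroup G :=
      { carrier := {x | x ∈ closure {a, b} ∧ x ^ 3 = 1}
        mul_mem' := by
          rintro x y ⟨hx, hx3⟩ ⟨hy, hy3⟩
          refine ⟨mul_mem hx hy, ?_⟩
          obtain ⟨k, hk⟩ := hH2 y hy x hx
          have h1 : ∀ w ∈ closure {a, b}, c ^ k * w = w * c ^ k := by
            intro w hw
            exact ((show Commute w c from hH1 w hw).zpow_right k).eq.symm
          rw [cube_mul (c := c ^ k) (by rw [← mul_assoc, ← hk]; group) (h1 x hx) (h1 y hy) (hpow3 k), hx3, hy3,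
            one_mul]
        one_mem' := ⟨one_mem _, one_pow _⟩
        inv_mem' := by
          rintro x ⟨hx, hx3⟩
          exact ⟨inv_mem hx, by rw [inv_pow, hx3, inv_one]⟩ }
    have : closure {a, b} ≤ K := by
      rw [closure_le]
      rintro y (rfl | rfl)
      · exact ⟨subset_closure (by simp), ha⟩
      · exact ⟨subset_closure (by simp), hb⟩
    exact fun x hx => (this hx).2
  have hH : IsPGroup 3 (closure {a, b} : Subgroup G) := by
    intro x
    refine ⟨1, ?_⟩
    apply Subtype.ext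
    rw [pow_one]
    exact hH3 x x.2
  obtain ⟨g, hg⟩ := C.exists_conj_le hH
  have h1 := C.comm_mem (hg a (subset_closure (by simp))) (hg b (subset_closure (by simp)))
  have h2 : g * a * g⁻¹ * (g * b * g⁻¹) * (g * a * g⁻¹)⁻¹ * (g * b * g⁻¹)⁻¹ = g * c * g⁻¹ := by
    calc g * a * g⁻¹ * (g * b * g⁻¹) * (g * a * g⁻¹)⁻¹ * (g * b * g⁻¹)⁻¹
        = g * (a * b) * (a⁻¹ * b⁻¹) * g⁻¹ := by group
      _ = g * c * g⁻¹ := by rw [hc]; group
  rw [h2] at h1
  have h3 : g * u * g⁻¹ * (g * c * g⁻¹) = g * c * g⁻¹ * (g * u * g⁻¹) := by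
    calc g * u * g⁻¹ * (g * c * g⁻¹) = g * (u * c) * g⁻¹ := by group
      _ = g * (c * u) * g⁻¹ := by rw [huc]
      _ = _ := by group
  have h4 : g * u * g⁻¹ * z = z * (g * u * g⁻¹) := by
    rcases C.mem_z h1 with h | h | h
    · exfalso
      rw [mul_inv_eq_one] at h
      exact hc1 (mul_eq_left.1 h)
    · rwa [h] at h3
    · rw [h] at h3
      have h5 : Commute (g * u * g⁻¹) z⁻¹ := h3
      have h6 := h5.inv_right
      rw [inv_inv] at h6
      exact h6.eq
  have h5 : (g * u * g⁻¹) ^ 5 = 1 := by rw [conj_pow, hu]; group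
  have h6 : g * u * g⁻¹ ≠ 1 := by
    intro h
    rw [mul_inv_eq_one] at h
    exact hu1 (mul_eq_left.1 h)
  have h7 : orderOf (g * u * g⁻¹) = 5 := by
    have : Fact (Nat.Prime 5) := ⟨by norm_num⟩
    exact orderOf_eq_prime h5 h6
  have h8 : Nat.card (zpowers (g * u * g⁻¹)) ∣ 54 := by
    rw [← C.card_cent]
    exact card_dvd_of_le (zpowers_le.2 (mem_centralizer_singleton_iff.2 h4))
  rw [Nat.card_zpowers, h7] at h8
  omega

end Cfg

end Cfsg.Agent.H441.GLAmal
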