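import Cfsg.Agent.H441.ThreePart
import Cfsg.Agent.H441.GLAmal.Perfect
import Cfsg.Agent.H441.GLAmal.Heis
import Cfsg.Agent.H441.GLAmal.G2
import Cfsg.Agent.H441.GLAmal.TF4
import Cfsg.Agent.H441.GLAmal.Ru
import Cfsg.Agent.H363.PslCard

/-!
# The groups with the configuration are `M₁₂` and `PSL₃(3)`
-/

set_option autoImplicit false

namespace Cfsg.Agent.H441.GLAmal

open Subgroup Cfsg

universe u

variable {G : Type u} [Group G] {A B E F S : Subgroup G} {z : G}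

theorem Cfg.heis (C : Cfg A B E F S z) : HeisLin.Heis G := by
  obtain ⟨e, he, s, hs, hez, hne⟩ := C.exists_ne
  have hc := C.comm_mem hs (C.hES he)
  have hzS : zpowers z ≤ S := zpowers_le.2 (C.hES C.hzE)
  have hcomm : ∀ c ∈ zpowers z, ∀ s ∈ S, s * c = c * s := by
    rintro _ ⟨k, rfl⟩ s hs
    have h1 : Commute s z := C.toPre.comm_z hs
    exact (h1.zpow_right k)
  refine ⟨s, e, s * e * s⁻¹ * e⁻¹, ?_, C.exp_S (hzS hc), C.exp_S hs, C.exp_S (C.hES he), by group,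
    hcomm _ hc s hs, hcomm _ hc e (C.hES he)⟩
  intro h
  apply hne
  have h1 : s * e = (s * e * s⁻¹ * e⁻¹) * (e * s) := by group
  rw [h1, h, one_mul]

theorem Cfg.not_hasPerf [Finite G] (C : Cfg A B E F S z) : ¬ TwoSL.HasPerf G := by
  rintro ⟨x, L, h1, h2, h3, h4⟩
  exact C.no_perfect h1 h2 h3 h4

theorem Cfg.not_five [Finite G] (C : Cfg A B E F S z) : ¬ Ru.Five G := by
  rintro ⟨a, b, c, u, h1, h2, h3, h4, h5, h6, h7, h8, h9, h10⟩
  exact C.no_five h1 h2 h3 h4 h5 h6 h7 h8 h9 h10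

theorem Cfg.final [Finite G] (T : OrdDiv.OrderTable.{u}) (C : Cfg A B E F S z) (hk : IsKnownSimple' G) :
    Cfsg.Spor.IsoM12 G ∨ Nonempty (G ≃* Matrix.ProjectiveSpecialLinearGroup (Fin 3) (ZMod 3)) := by
  obtain ⟨a, b, hab⟩ := C.not_comm
  obtain ⟨n, hn, hn3⟩ := C.card_eq
  have h27 : 27 ∣ Nat.card G := by omega
  have hH := C.heis
  rcases ThreePart.main T hk (fun h => hab (h a b)) h27 C.not_dvd with
    ⟨K, _, _, ⟨e⟩⟩ | ⟨K, _, _, hK, ⟨e⟩⟩ | ⟨K, _, _, hK, ⟨e⟩⟩ | ⟨K, _, _, q, hK, hq, ⟨e⟩⟩ | h |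
    ⟨K, _, _, hq, h3, h9, ⟨e⟩⟩ | ⟨K, _, _, m, hm, hK, h9, ⟨e⟩⟩ | ⟨h, hc⟩ | h | ⟨h, hc⟩ | ⟨h, hc⟩ | ⟨h, hc⟩ | ⟨h, hc⟩ | h
  · exact absurd (hH.of_equiv e) HeisLin.not_psl2
  · exact absurd (hH.of_equiv e) (HeisLin.not_psl3 hK)
  · right
    obtain ⟨f⟩ := Cfsg.Agent.H363.PslCard.psl_of_card (n := Fin 3) (F := K) (F' := ZMod 3)
      (by rw [hK, ZMod.card])
    exact ⟨e.trans f⟩
  · exact absurd (hH.of_equiv e) (HeisLin.not_psu3 hK hq)
  · omega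
  · refine absurd ((TwoSL.g2 K ?_).of_equiv e) C.not_hasPerf
    by_contra h
    have : Fintype.card K = 3 := by omega
    exact h3 (by omega)
  · exact absurd ((TwoSL.tf4 K m hm hK).of_equiv e) C.not_hasPerf
  · omega
  · exact Or.inl h
  · omega
  · omega
  · omega
  · omega
  · exact absurd (Ru.five h) C.not_five

end Cfsg.Agent.H441.GLAmal
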