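import Cfsg.Agent.H441.GLAmal.Side
import Cfsg.Agent.S1287

/-!
# Two subgroups `3² : GL₂(3)` with a common Sylow 3-subgroup: local analysis

`Cfg A B E F S z` : `Side A E`, `Side B F`, `E ≠ F`, `E, F ≤ S ≤ A ⊓ B`, `|S| = 27`, `z ∈ E ⊓ F`, `N_G(⟨z⟩) ≤ A ⊓ B`.
-/

set_option autoImplicit false

namespace Cfsg.Agent.H441.GLAmal

open Subgroup

variable {G : Type*} [Group G]

theorem nat27 {c : ℕ} (h1 : c ∣ 27) (h9 : 9 ∣ c) (h : c ≠ 9) : c = 27 := by
  have h6 := Nat.le_of_dvd (by norm_num) h1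
  interval_cases c <;> omega

theorem nat9 {c : ℕ} (h1 : c ∣ 9) (h3 : 3 ∣ c) (h : c ≠ 9) : c = 3 := by
  have h6 := Nat.le_of_dvd (by norm_num) h1
  interval_cases c <;> omega

structure Pre (A B E F S : Subgroup G) (z : G) : Prop where
  sA : Side A E
  sB : Side B F
  ne : E ≠ F
  hES : E ≤ S
  hFS : F ≤ S
  hSA : S ≤ A
  hSB : S ≤ B
  cardS : Nat.card S = 27
  hzE : z ∈ E
  hzF : z ∈ F
  hz1 : z ≠ 1

structure Cfg (A B E F S : Subgroup G) (z : G) : Prop extends Pre A B E F S z where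
  norm : normalizer (zpowers z : Set G) ≤ A ⊓ B

namespace Cfg

variable {A B E F S : Subgroup G} {z : G}

theorem symm (C : Cfg A B E F S z) : Cfg B A F E S z where
  sA := C.sB
  sB := C.sA
  ne := C.ne.symm
  hES := C.hFS
  hFS := C.hES
  hSA := C.hSB
  hSB := C.hSA
  cardS := C.cardS
  hzE := C.hzF
  hzF := C.hzE
  hz1 := C.hz1
  norm := le_trans C.norm (le_of_eq (inf_comm _ _))

end Cfg

namespace Pre

variable {A B E F S : Subgroup G} {z : G}

theorem z3 (C : Pre A B E F S z) : z ^ 3 = 1 := C.sA.cube z C.hzE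

theorem cardz (C : Pre A B E F S z) : Nat.card (zpowers z) = 3 := card_zpowers_three C.z3 C.hz1

theorem finS (C : Pre A B E F S z) : Finite S := Nat.finite_of_card_ne_zero (by rw [C.cardS]; norm_num)

/-- `E ⊔ F = S` -/
theorem sup_eq (C : Pre A B E F S z) : E ⊔ F = S := by
  have hfS := C.finS
  have hle : E ⊔ F ≤ S := sup_le C.hES C.hFS
  have hf : Finite (E ⊔ F : Subgroup G) := Finite.Set.subset (S : Set G) hle
  have h1 : Nat.card (E ⊔ F : Subgroup G) ∣ 27 := C.cardS ▸ card_dvd_of_le hle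
  have h9 : 9 ∣ Nat.card (E ⊔ F : Subgroup G) := C.sA.cardE ▸ card_dvd_of_le le_sup_left
  have hne : Nat.card (E ⊔ F : Subgroup G) ≠ 9 := by
    intro h
    have h2 : E = E ⊔ F := eq_of_le_of_card_ge le_sup_left (by rw [h, C.sA.cardE])
    have h3 : F = E ⊔ F := eq_of_le_of_card_ge le_sup_right (by rw [h, C.sB.cardE])
    exact C.ne (h2.trans h3.symm)
  apply eq_of_le_of_card_ge hle
  rw [C.cardS, nat27 h1 h9 hne]

/-- `E ⊓ F = ⟨z⟩` -/
theorem inf_eq (C : Pre A B E F S z) : E ⊓ F = zpowers z := by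
  symm
  have hfE : Finite E := Nat.finite_of_card_ne_zero (by rw [C.sA.cardE]; norm_num)
  have hfi : Finite (E ⊓ F : Subgroup G) := Finite.Set.subset (E : Set G) inf_le_left
  have hle : zpowers z ≤ E ⊓ F := zpowers_le.2 ⟨C.hzE, C.hzF⟩
  apply eq_of_le_of_card_ge hle
  have h1 : Nat.card (E ⊓ F : Subgroup G) ∣ 9 := C.sA.cardE ▸ card_dvd_of_le inf_le_left
  have h2 : Nat.card (E ⊓ F : Subgroup G) ≠ 9 := by
    intro h
    have h3 : E ⊓ F = E := eq_of_le_of_card_ge inf_le_left (by rw [h, C.sA.cardE])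
    have hfF : Finite F := Nat.finite_of_card_ne_zero (by rw [C.sB.cardE]; norm_num)
    have h4 : E ⊓ F = F := eq_of_le_of_card_ge inf_le_right (by rw [h, C.sB.cardE])
    exact C.ne (h3.symm.trans h4)
  have h3 : 3 ∣ Nat.card (E ⊓ F : Subgroup G) := C.cardz ▸ card_dvd_of_le hle
  rw [C.cardz, nat9 h1 h3 h2]

/-- `z` is central in `S` -/
theorem comm_z (C : Pre A B E F S z) {s : G} (hs : s ∈ S) : s * z = z * s := by
  have h : E ⊔ F ≤ centralizer {z} := by
    rw [sup_le_iff]
    refine ⟨fun x hx => ?_, fun x hx => ?_⟩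
    · exact mem_centralizer_singleton_iff.2 (C.sA.comm x hx z C.hzE)
    · exact mem_centralizer_singleton_iff.2 (C.sB.comm x hx z C.hzF)
  rw [C.sup_eq] at h
  exact mem_centralizer_singleton_iff.1 (h hs)

theorem center_S (C : Pre A B E F S z) {c : G} (hc : c ∈ S) (h : ∀ s ∈ S, c * s = s * c) : c ∈ zpowers z := by
  rw [← C.inf_eq]
  exact ⟨C.sA.cent c (C.hSA hc) (fun e he => h e (C.hES he)), C.sB.cent c (C.hSB hc) (fun e he => h e (C.hFS he))⟩

end Pre

namespace Cfg

variable {A B E F S : Subgroup G} {z : G}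

theorem cent_le_norm (C : Cfg A B E F S z) : centralizer ({z} : Set G) ≤ normalizer (zpowers z : Set G) := by
  intro g hg
  have hg := mem_centralizer_singleton_iff.1 hg
  rw [mem_normalizer_iff]
  intro h
  have hc : ∀ k : ℤ, g * z ^ k * g⁻¹ = z ^ k := by
    intro k
    have h2 : Commute g z := hg
    rw [(h2.zpow_right k).eq, mul_inv_cancel_right]
  constructor
  · rintro ⟨k, rfl⟩
    change g * z ^ k * g⁻¹ ∈ zpowers z
    rw [hc]
    exact ⟨k, rfl⟩
  · rintro ⟨k, hk⟩
    have hk : z ^ k = g * h * g⁻¹ := hk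
    refine ⟨k, ?_⟩
    change z ^ k = h
    have h3 := hc k
    rw [hk] at h3
    have h4 : g * (g * h * g⁻¹) * g⁻¹ = g * h * g⁻¹ := h3
    have h5 : g * h * g⁻¹ = h := mul_left_cancel (mul_right_cancel h4)
    rw [hk, h5]

theorem cent_le (C : Cfg A B E F S z) {g : G} (hg : g * z = z * g) : g ∈ A ∧ g ∈ B :=
  C.norm (C.cent_le_norm (mem_centralizer_singleton_iff.2 hg))

/-- an element of `E` outside `⟨z⟩` -/
theorem exists_e (C : Cfg A B E F S z) : ∃ e ∈ E, e ∉ zpowers z := by
  by_contra h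
  push Not at h
  have h1 : E ≤ zpowers z := h
  have hfz : Finite (zpowers z) := Nat.finite_of_card_ne_zero (by rw [C.cardz]; norm_num)
  have h2 := card_dvd_of_le h1
  rw [C.sA.cardE, C.cardz] at h2
  omega

/-- an element of `S` commuting with an element of `E` outside `⟨z⟩` is in `E` -/
theorem mem_E_of_comm (C : Cfg A B E F S z) {a e : G} (ha : a ∈ A) (haz : a * z = z * a) (he : e ∈ E)
    (hez : e ∉ zpowers z) (h : a * e = e * a) : a ∈ E :=
  C.sA.cent a ha (comm_closure (closure_eq C.sA.cardE C.sA.cube C.hzE he C.hz1 hez) haz h)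

/-- the number of elements of `A` fixing `z` is 54 -/
theorem card_cent (C : Cfg A B E F S z) : Nat.card (centralizer ({z} : Set G)) = 54 := by
  classical
  obtain ⟨e, he, hez⟩ := C.exists_e
  have hfE : Finite E := Nat.finite_of_card_ne_zero (by rw [C.sA.cardE]; norm_num)
  have hfA : Finite A := Nat.finite_of_card_ne_zero (by rw [C.sA.cardA]; norm_num)
  have hfC : Finite (centralizer ({z} : Set G)) :=
    Finite.Set.subset (A : Set G) (fun g hg => (C.cent_le (mem_centralizer_singleton_iff.1 hg)).1)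
  have hf9 : Nat.card {u : E // (u : G) ≠ 1} = 8 := by
    have h1 : Nat.card {u : E // (u : G) ≠ 1} + Nat.card {u : E // ¬ ((u : G) ≠ 1)} = Nat.card E := by
      rw [← Nat.card_sum]
      exact Nat.card_congr (Equiv.sumCompl _)
    have h2 : Nat.card {u : E // ¬ ((u : G) ≠ 1)} = 1 := by
      rw [Nat.card_eq_one_iff_unique]
      refine ⟨⟨fun a b => ?_⟩, ⟨⟨1, by simp⟩⟩⟩
      have ha := a.2
      have hb := b.2
      push Not at ha hb
      exact Subtype.ext (Subtype.ext (ha.trans hb.symm))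
    rw [h2, C.sA.cardE] at h1
    omega
  -- choose conjugating elements
  have hch : ∀ u : {u : E // (u : G) ≠ 1}, ∃ a ∈ A, a * z * a⁻¹ = (u : E) := by
    intro u
    obtain ⟨v, hv, hvu⟩ : ∃ v ∈ E, v ∉ zpowers ((u : E) : G) := by
      by_contra h
      push Not at h
      have h1 : E ≤ zpowers ((u : E) : G) := h
      have h3 := card_zpowers_three (C.sA.cube _ u.1.2) u.2
      have hfz : Finite (zpowers ((u : E) : G)) := Nat.finite_of_card_ne_zero (by rw [h3]; norm_num)
      have h2 := card_dvd_of_le h1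
      rw [C.sA.cardE, h3] at h2
      omega
    obtain ⟨a, ha, h1, -⟩ := C.sA.trans C.hzE he C.hz1 hez u.1.2 hv u.2 hvu
    exact ⟨a, ha, h1⟩
  choose f hfA' hf using hch
  have hbij : Function.Bijective (fun p : {u : E // (u : G) ≠ 1} × centralizer ({z} : Set G) =>
      (⟨f p.1 * p.2, A.mul_mem (hfA' _) (C.cent_le (mem_centralizer_singleton_iff.1 p.2.2)).1⟩ : A)) := by
    constructor
    · rintro ⟨u, c⟩ ⟨u', c'⟩ h
      have h1 : f u * c = f u' * c' := congrArg (fun t : A => (t : G)) h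
      have h2 : (u : G) = u' := by
        rw [← hf u, ← hf u']
        have hc := mem_centralizer_singleton_iff.1 c.2
        have hc' := mem_centralizer_singleton_iff.1 c'.2
        calc f u * z * (f u)⁻¹ = f u * (z * c) * (c : G)⁻¹ * (f u)⁻¹ := by group
          _ = f u * (c * z) * (c : G)⁻¹ * (f u)⁻¹ := by rw [hc]
          _ = (f u * c) * z * (f u * c)⁻¹ := by group
          _ = (f u' * c') * z * (f u' * c')⁻¹ := by rw [h1]
          _ = f u' * (c' * z) * (c' : G)⁻¹ * (f u')⁻¹ := by group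
          _ = f u' * (z * c') * (c' : G)⁻¹ * (f u')⁻¹ := by rw [hc']
          _ = f u' * z * (f u')⁻¹ := by group
      have h3 : u = u' := Subtype.ext (Subtype.ext h2)
      subst h3
      exact Prod.ext rfl (Subtype.ext (mul_left_cancel h1))
    · intro a
      have h1 : (a : G) * z * (a : G)⁻¹ ∈ E := C.sA.conj_mem a a.2 z C.hzE
      have h2 : (a : G) * z * (a : G)⁻¹ ≠ 1 := by
        intro h
        rw [mul_inv_eq_one] at h
        exact C.hz1 (mul_eq_left.1 h)
      let u : {u : E // (u : G) ≠ 1} := ⟨⟨_, h1⟩, h2⟩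
      have h3 : (f u)⁻¹ * a ∈ centralizer ({z} : Set G) := by
        rw [mem_centralizer_singleton_iff]
        have h4 : f u * z * (f u)⁻¹ = (a : G) * z * (a : G)⁻¹ := hf u
        calc (f u)⁻¹ * a * z = (f u)⁻¹ * ((a : G) * z * (a : G)⁻¹) * a := by group
          _ = (f u)⁻¹ * (f u * z * (f u)⁻¹) * a := by rw [h4]
          _ = z * ((f u)⁻¹ * a) := by group
      refine ⟨(u, ⟨_, h3⟩), ?_⟩
      apply Subtype.ext
      change f u * ((f u)⁻¹ * a) = a
      group
  have h1 := Nat.card_congr (Equiv.ofBijective _ hbij)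
  rw [Nat.card_prod, hf9, C.sA.cardA] at h1
  omega

end Cfg

end Cfsg.Agent.H441.GLAmal
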