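import Cfsg.Agent.H441.GLAmal.Local

/-!
# `3² : GL₂(3)` amalgams: the normalizer of the Sylow 3-subgroup, its exponent, the Sylow congruence
-/

set_option autoImplicit false

namespace Cfsg.Agent.H441.GLAmal

open Subgroup

variable {G : Type*} [Group G]

namespace Cfg

variable {A B E F S : Subgroup G} {z : G}

theorem exists_indep (C : Cfg A B E F S z) {u : G} (hu : u ∈ E) (hu1 : u ≠ 1) : ∃ v ∈ E, v ∉ zpowers u := by
  by_contra h
  push Not at h
  have h1 : E ≤ zpowers u := h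
  have h3 := card_zpowers_three (C.sA.cube _ hu) hu1
  have hfz : Finite (zpowers u) := Nat.finite_of_card_ne_zero (by rw [h3]; norm_num)
  have h2 := card_dvd_of_le h1
  rw [C.sA.cardE, h3] at h2
  omega

/-- the elements of `E` are conjugate to `z` -/
theorem exists_conj (C : Cfg A B E F S z) {u : G} (hu : u ∈ E) (hu1 : u ≠ 1) : ∃ a ∈ A, a * z * a⁻¹ = u := by
  obtain ⟨e, he, hez⟩ := C.exists_e
  obtain ⟨v, hv, hvu⟩ := C.exists_indep hu hu1
  obtain ⟨a, ha, h1, -⟩ := C.sA.trans C.hzE he C.hz1 hez hu hv hu1 hvu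
  exact ⟨a, ha, h1⟩

theorem zinv_ne (C : Cfg A B E F S z) : z⁻¹ ≠ z := by
  intro h
  have h1 : z * z = 1 := by
    calc z * z = z * z⁻¹ := by rw [h]
      _ = 1 := mul_inv_cancel z
  have h3 := C.z3
  apply C.hz1
  calc z = z ^ 3 * (z * z)⁻¹ := by group
    _ = 1 := by rw [h3, h1]; group

/-- the elements of `⟨z⟩` -/
theorem mem_z (C : Cfg A B E F S z) {u : G} (hu : u ∈ zpowers z) : u = 1 ∨ u = z ∨ u = z⁻¹ := by
  obtain ⟨k, rfl⟩ := hu
  have h3 := C.z3
  have h3' : z ^ (3 : ℤ) = 1 := by exact_mod_cast h3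
  have hk := Int.emod_add_mul_ediv k 3
  have h5 : z ^ k = z ^ (k % 3) := by
    conv_lhs => rw [← hk]
    rw [zpow_add, zpow_mul, h3', one_zpow, mul_one]
  have h6 : k % 3 = 0 ∨ k % 3 = 1 ∨ k % 3 = 2 := by omega
  change z ^ k = 1 ∨ z ^ k = z ∨ z ^ k = z⁻¹
  rw [h5]
  rcases h6 with h | h | h
  · left; rw [h, zpow_zero]
  · right; left; rw [h, zpow_one]
  · right; right
    rw [h]
    have : z ^ (2 : ℤ) = z ^ (3 : ℤ) * z⁻¹ := by group
    rw [this, h3', one_mul]

theorem mem_norm_iff (C : Cfg A B E F S z) {g : G} :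
    g ∈ normalizer (zpowers z : Set G) ↔ g * z * g⁻¹ = z ∨ g * z * g⁻¹ = z⁻¹ := by
  constructor
  · intro h
    have h1 := (mem_normalizer_iff.1 h z).1 (mem_zpowers z)
    rcases C.mem_z h1 with h2 | h2 | h2
    · exfalso
      rw [mul_inv_eq_one] at h2
      exact C.hz1 (mul_eq_left.1 h2)
    · exact Or.inl h2
    · exact Or.inr h2
  · intro h
    have hfz : Finite (zpowers z) := Nat.finite_of_card_ne_zero (by rw [C.cardz]; norm_num)
    have h1 : ∀ u ∈ zpowers z, g * u * g⁻¹ ∈ zpowers z := by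
      rintro u ⟨k, rfl⟩
      change g * z ^ k * g⁻¹ ∈ zpowers z
      rw [← conj_zpow]
      apply zpow_mem
      rcases h with h | h
      · rw [h]; exact mem_zpowers z
      · rw [h]; exact inv_mem (mem_zpowers z)
    have h2 : (zpowers z).map (MulAut.conj g).toMonoidHom = zpowers z := by
      apply eq_of_le_of_card_ge
      · rintro x ⟨u, hu, rfl⟩
        exact h1 u hu
      · rw [card_map_of_injective (MulAut.conj g).injective]
    rw [mem_normalizer_iff]
    intro x
    refine ⟨h1 x, fun hx => ?_⟩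
    have hx : g * x * g⁻¹ ∈ zpowers z := hx
    rw [← h2] at hx
    obtain ⟨u, hu, hu2⟩ := hx
    have hu2 : g * u * g⁻¹ = g * x * g⁻¹ := hu2
    have : u = x := mul_left_cancel (mul_right_cancel hu2)
    exact this ▸ hu

/-- `|N_G(⟨z⟩)| = 108` -/
theorem card_norm (C : Cfg A B E F S z) : Nat.card (normalizer (zpowers z : Set G)) = 108 := by
  classical
  obtain ⟨t, ht, htz⟩ := C.exists_conj (inv_mem C.hzE) (inv_ne_one.2 C.hz1)
  have h0 : Nat.card (Bool × centralizer ({z} : Set G)) = 108 := by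
    rw [Nat.card_prod, C.card_cent, Nat.card_eq_fintype_card, Fintype.card_bool]
  rw [← h0]
  symm
  have hmem : ∀ p : Bool × centralizer ({z} : Set G), (if p.1 then t else 1) * (p.2 : G) ∈
      normalizer (zpowers z : Set G) := by
    rintro ⟨b, c⟩
    apply mul_mem
    · cases b
      · simp [one_mem]
      · rw [if_pos rfl]
        exact C.mem_norm_iff.2 (Or.inr htz)
    · exact C.cent_le_norm c.2
  refine Nat.card_congr (Equiv.ofBijective (fun p => ⟨(if p.1 then t else 1) * (p.2 : G), hmem p⟩) ⟨?_, ?_⟩)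
  · rintro ⟨b, c⟩ ⟨b', c'⟩ h
    have h1 : (if b then t else 1) * (c : G) = (if b' then t else 1) * (c' : G) := congrArg Subtype.val h
    have hc := mem_centralizer_singleton_iff.1 c.2
    have hc' := mem_centralizer_singleton_iff.1 c'.2
    have key : ∀ w : G, w * z = z * w → t * w * z * (t * w)⁻¹ = z⁻¹ := by
      intro w hw
      rw [← htz]
      calc t * w * z * (t * w)⁻¹ = t * (w * z) * w⁻¹ * t⁻¹ := by group
        _ = t * (z * w) * w⁻¹ * t⁻¹ := by rw [hw]
        _ = t * z * t⁻¹ := by group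
    have key2 : ∀ w : G, w * z = z * w → w * z * w⁻¹ = z := by
      intro w hw
      rw [hw, mul_inv_cancel_right]
    cases b <;> cases b' <;> simp only [if_true, Bool.false_eq_true, if_false, one_mul] at h1
    · exact Prod.ext rfl (Subtype.ext h1)
    · exfalso
      have h2 := key2 _ hc
      rw [h1, key _ hc'] at h2
      exact C.zinv_ne h2
    · exfalso
      have h2 := key2 _ hc'
      rw [← h1, key _ hc] at h2
      exact C.zinv_ne h2
    · exact Prod.ext rfl (Subtype.ext (mul_left_cancel h1))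
  · intro g
    rcases C.mem_norm_iff.1 g.2 with h | h
    · refine ⟨(false, ⟨g, mem_centralizer_singleton_iff.2 ?_⟩), ?_⟩
      · exact mul_inv_eq_iff_eq_mul.1 h
      · apply Subtype.ext
        simp
    · refine ⟨(true, ⟨t⁻¹ * g, mem_centralizer_singleton_iff.2 ?_⟩), ?_⟩
      · have h2 : t⁻¹ * z⁻¹ * t = z := by rw [← htz]; group
        calc t⁻¹ * g * z = t⁻¹ * ((g : G) * z * (g : G)⁻¹) * g := by group
          _ = t⁻¹ * z⁻¹ * t * (t⁻¹ * g) := by rw [h]; group
          _ = z * (t⁻¹ * g) := by rw [h2]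
      · apply Subtype.ext
        simp

/-- `N_G(⟨z⟩)` normalizes `S` -/
theorem norm_S (C : Cfg A B E F S z) {n : G} (hn : n ∈ normalizer (zpowers z : Set G)) {s : G} (hs : s ∈ S) :
    n * s * n⁻¹ ∈ S := by
  have hAB := C.norm hn
  have h : E ⊔ F ≤ S.comap (MulAut.conj n).toMonoidHom := by
    rw [sup_le_iff]
    exact ⟨fun x hx => C.hES (C.sA.conj_mem n hAB.1 x hx), fun x hx => C.hFS (C.sB.conj_mem n hAB.2 x hx)⟩
  rw [C.sup_eq] at h
  exact h hs

/-- `N_G(S) = N_G(⟨z⟩)` -/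
theorem norm_eq (C : Cfg A B E F S z) : normalizer (S : Set G) = normalizer (zpowers z : Set G) := by
  apply le_antisymm
  · intro n hn
    have h1 : n * z * n⁻¹ ∈ zpowers z := by
      apply C.center_S
      · exact (mem_normalizer_iff.1 hn z).1 (C.hES C.hzE)
      · intro s hs
        have h2 : n⁻¹ * s * n ∈ S := by
          have := (mem_normalizer_iff.1 (inv_mem hn) s).1 hs
          simpa using this
        have h3 := C.comm_z h2
        calc n * z * n⁻¹ * s = n * (z * (n⁻¹ * s * n)) * n⁻¹ := by group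
          _ = n * (n⁻¹ * s * n * z) * n⁻¹ := by rw [h3]
          _ = s * (n * z * n⁻¹) := by group
    rw [C.mem_norm_iff]
    rcases C.mem_z h1 with h2 | h2 | h2
    · exfalso
      rw [mul_inv_eq_one] at h2
      exact C.hz1 (mul_eq_left.1 h2)
    · exact Or.inl h2
    · exact Or.inr h2
  · intro n hn
    rw [mem_normalizer_iff]
    intro s
    refine ⟨fun hs => C.norm_S hn hs, fun hs => ?_⟩
    have := C.norm_S (inv_mem hn) hs
    have h2 : n⁻¹ * (n * s * n⁻¹) * n⁻¹⁻¹ = s := by group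
    rwa [h2] at this

theorem not_dvd [Finite G] (C : Cfg A B E F S z) : ¬ 81 ∣ Nat.card G := by
  intro h
  have : Fact (Nat.Prime 3) := ⟨Nat.prime_three⟩
  have h1 := Sylow.prime_dvd_card_quotient_normalizer (p := 3) (n := 3) (by simpa using h) (H := S)
    (by rw [C.cardS]; norm_num)
  have h2 := card_eq_card_quotient_mul_card_subgroup (S.subgroupOf (normalizer (S : Set G)))
  rw [C.norm_eq, C.card_norm, ← C.norm_eq] at h2
  have h3 : Nat.card (S.subgroupOf (normalizer (S : Set G))) = 27 := by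
    rw [← C.cardS]
    exact Nat.card_congr (subgroupOfEquivOfLe le_normalizer).toEquiv
  rw [h3] at h2
  have h4 : 3 ∣ Nat.card (↥(normalizer (S : Set G)) ⧸ S.subgroupOf (normalizer (S : Set G))) := h1
  have h5 : 108 = Nat.card (↥(normalizer (S : Set G)) ⧸ S.subgroupOf (normalizer (S : Set G))) * 27 := h2
  omega

/-- `S` as a Sylow subgroup -/
theorem exists_sylow [Finite G] (C : Cfg A B E F S z) : ∃ P : Sylow 3 G, (P : Subgroup G) = S := by
  have : Fact (Nat.Prime 3) := ⟨Nat.prime_three⟩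
  have hp : IsPGroup 3 S := IsPGroup.of_card (n := 3) (by rw [C.cardS]; norm_num)
  obtain ⟨P, hP⟩ := hp.exists_le_sylow
  refine ⟨P, ?_⟩
  symm
  apply eq_of_le_of_card_ge hP
  obtain ⟨n, hn⟩ := IsPGroup.iff_card.1 P.2
  have h1 : Nat.card (P : Subgroup G) ∣ Nat.card G := card_subgroup_dvd_card _
  have h2 : n ≤ 3 := by
    by_contra h
    push Not at h
    apply C.not_dvd
    rw [hn] at h1
    exact (pow_dvd_pow 3 h).trans h1
  rw [hn, C.cardS]
  calc 3 ^ n ≤ 3 ^ 3 := Nat.pow_le_pow_right (by norm_num) h2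
    _ = 27 := by norm_num

/-- the Sylow congruence -/
theorem card_eq [Finite G] (C : Cfg A B E F S z) : ∃ n, Nat.card G = 108 * n ∧ n % 3 = 1 := by
  have : Fact (Nat.Prime 3) := ⟨Nat.prime_three⟩
  obtain ⟨P, hP⟩ := C.exists_sylow
  have h1 := card_sylow_modEq_one 3 G
  have h2 : Nat.card (Sylow 3 G) = (normalizer ((P : Subgroup G) : Set G)).index := P.card_eq_index_normalizer
  rw [hP, C.norm_eq] at h2
  refine ⟨Nat.card (Sylow 3 G), ?_, ?_⟩
  · rw [h2, mul_comm, ← C.card_norm]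
    exact (index_mul_card _).symm
  · exact h1

/-- every subgroup of order 27, more generally every 3-subgroup, is conjugate into `S` -/
theorem exists_conj_le [Finite G] (C : Cfg A B E F S z) {T : Subgroup G} (hT : IsPGroup 3 T) :
    ∃ g : G, ∀ t ∈ T, g * t * g⁻¹ ∈ S := by
  have : Fact (Nat.Prime 3) := ⟨Nat.prime_three⟩
  obtain ⟨P, hP⟩ := C.exists_sylow
  obtain ⟨Q, hQ⟩ := hT.exists_le_sylow
  obtain ⟨g, hg⟩ := MulAction.exists_smul_eq G Q P
  refine ⟨g, fun t ht => ?_⟩
  rw [← hP, ← hg]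
  exact ⟨t, hQ ht, rfl⟩

/-- commutators of `S` are in `⟨z⟩` -/
theorem comm_mem (C : Cfg A B E F S z) {x y : G} (hx : x ∈ S) (hy : y ∈ S) : x * y * x⁻¹ * y⁻¹ ∈ zpowers z := by
  -- first `x ∈ E`
  have hE : ∀ x ∈ E, ∀ y ∈ S, x * y * x⁻¹ * y⁻¹ ∈ E := by
    intro x hx y hy
    have h1 := C.sA.conj_mem y (C.hSA hy) x⁻¹ (inv_mem hx)
    have h2 : x * y * x⁻¹ * y⁻¹ = x * (y * x⁻¹ * y⁻¹) := by group
    rw [h2]
    exact mul_mem hx h1
  have hF : ∀ x ∈ F, ∀ y ∈ S, x * y * x⁻¹ * y⁻¹ ∈ F := by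
    intro x hx y hy
    have h1 := C.sB.conj_mem y (C.hSB hy) x⁻¹ (inv_mem hx)
    have h2 : x * y * x⁻¹ * y⁻¹ = x * (y * x⁻¹ * y⁻¹) := by group
    rw [h2]
    exact mul_mem hx h1
  -- `S / E` and `S / F` are abelian
  have key : ∀ (K : Subgroup G), K ≤ S → (∀ a ∈ S, ∀ e ∈ K, a * e * a⁻¹ ∈ K) → Nat.card K = 9 →
      x * y * x⁻¹ * y⁻¹ ∈ K := by
    intro K hKS hconj hcard
    have hn : (K.subgroupOf S).Normal := by
      constructor
      intro k hk g
      rw [mem_subgroupOf] at hk ⊢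
      exact hconj g g.2 k hk
    have h9 : Nat.card (K.subgroupOf S) = 9 := by
      rw [← hcard]
      exact Nat.card_congr (subgroupOfEquivOfLe hKS).toEquiv
    have h3 : Nat.card (S ⧸ K.subgroupOf S) = 3 := by
      have h1 := card_eq_card_quotient_mul_card_subgroup (K.subgroupOf S)
      rw [C.cardS, h9] at h1
      omega
    have : Fact (Nat.Prime 3) := ⟨Nat.prime_three⟩
    have hcyc : IsCyclic (S ⧸ K.subgroupOf S) := isCyclic_of_prime_card h3
    have hcm : ∀ a b : S ⧸ K.subgroupOf S, a * b = b * a := (IsCyclic.isMulCommutative (α := S ⧸ K.subgroupOf S)).is_comm.comm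
    have h4 := hcm (QuotientGroup.mk ⟨x, hx⟩) (QuotientGroup.mk ⟨y, hy⟩)
    rw [← QuotientGroup.mk_mul, ← QuotientGroup.mk_mul, eq_comm, QuotientGroup.eq, mem_subgroupOf] at h4
    have h5 := hconj (x * y) (mul_mem hx hy) _ h4
    have h6 : x * y * (((⟨y, hy⟩ * ⟨x, hx⟩ : S)⁻¹ * (⟨x, hx⟩ * ⟨y, hy⟩) : S) : G) * (x * y)⁻¹ =
        x * y * x⁻¹ * y⁻¹ := by
      change x * y * ((y * x)⁻¹ * (x * y)) * (x * y)⁻¹ = _
      group
    rwa [h6] at h5
  rw [← C.inf_eq]
  exact ⟨key E C.hES (fun a ha e he => C.sA.conj_mem a (C.hSA ha) e he) C.sA.cardE,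
    key F C.hFS (fun a ha e he => C.sB.conj_mem a (C.hSB ha) e he) C.sB.cardE⟩

/-- cubes of products when the commutator is central of order 3 -/
theorem cube_mul {x y c : G} (hc : y * x = c * (x * y)) (hcx : c * x = x * c) (hcy : c * y = y * c)
    (hc3 : c ^ 3 = 1) : (x * y) ^ 3 = x ^ 3 * y ^ 3 := by
  have hC1 : Commute c x := hcx
  have hC2 : Commute c y := hcy
  have e1 : (x * y) ^ 3 = x * (y * x) * (y * x) * y := by
    rw [pow_succ, pow_two]; group
  have e2 : x * (y * x) * (y * x) * y = c * c * (x * x) * (y * x) * (y * y) := by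
    rw [hc]
    have h1 : x * (c * (x * y)) * (c * (x * y)) * y = (x * c) * x * (y * c) * x * y * y := by group
    rw [h1, ← hcx, ← hcy]
    have h2 : c * x * x * (c * y) * x * y * y = c * (x * x * c) * (y * x) * (y * y) := by group
    have h3 : x * x * c = c * (x * x) := ((hC1.mul_right hC1).eq).symm
    rw [h2, h3, hc]
    have h4 : c * (c * (x * x)) * (c * (x * y)) * (y * y) = c * c * (x * x) * (c * (x * y)) * (y * y) := by group
    rw [h4]
  have e3 : c * c * (x * x) * (y * x) * (y * y) = c ^ 3 * (x ^ 3 * y ^ 3) := by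
    rw [hc]
    have h3 : x * x * c = c * (x * x) := ((hC1.mul_right hC1).eq).symm
    calc c * c * (x * x) * (c * (x * y)) * (y * y) = c * c * (x * x * c) * (x * y) * (y * y) := by group
      _ = c * c * (c * (x * x)) * (x * y) * (y * y) := by rw [h3]
      _ = c ^ 3 * (x ^ 3 * y ^ 3) := by simp only [pow_succ, pow_zero, one_mul, mul_assoc]
  rw [e1, e2, e3, hc3, one_mul]

/-- `S` has exponent 3 -/
theorem exp_S (C : Cfg A B E F S z) {s : G} (hs : s ∈ S) : s ^ 3 = 1 := by
  -- the set of elements of `S` with cube 1 is a subgroup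
  let K : Subgroup G :=
    { carrier := {x | x ∈ S ∧ x ^ 3 = 1}
      mul_mem' := by
        rintro x y ⟨hx, hx3⟩ ⟨hy, hy3⟩
        refine ⟨mul_mem hx hy, ?_⟩
        have h1 := C.comm_mem hy hx
        have hcS : y * x * y⁻¹ * x⁻¹ ∈ S := (zpowers_le.2 (C.hES C.hzE)) h1
        have hcz : ∀ w ∈ S, y * x * y⁻¹ * x⁻¹ * w = w * (y * x * y⁻¹ * x⁻¹) := by
          intro w hw
          obtain ⟨k, hk⟩ := h1
          have hk : z ^ k = y * x * y⁻¹ * x⁻¹ := hk
          rw [← hk]
          have h2 : Commute w z := C.comm_z hw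
          exact (h2.zpow_right k).eq.symm
        rw [cube_mul (c := y * x * y⁻¹ * x⁻¹) (by group) (hcz x hx) (hcz y hy), hx3, hy3, one_mul]
        rcases C.mem_z h1 with h | h | h
        · rw [h, one_pow]
        · rw [h, C.z3]
        · rw [h, inv_pow, C.z3, inv_one]
      one_mem' := ⟨one_mem _, one_pow _⟩
      inv_mem' := by
        rintro x ⟨hx, hx3⟩
        exact ⟨inv_mem hx, by rw [inv_pow, hx3, inv_one]⟩ }
  have h : E ⊔ F ≤ K := by
    rw [sup_le_iff]
    exact ⟨fun x hx => ⟨C.hES hx, C.sA.cube x hx⟩, fun x hx => ⟨C.hFS hx, C.sB.cube x hx⟩⟩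
  rw [C.sup_eq] at h
  exact (h hs).2

/-- no elements of order 9 -/
theorem not_nine [Finite G] (C : Cfg A B E F S z) (x : G) : orderOf x ≠ 9 := by
  intro h
  have hp : IsPGroup 3 (zpowers x) := IsPGroup.of_card (n := 2) (by rw [Nat.card_zpowers, h]; norm_num)
  obtain ⟨g, hg⟩ := C.exists_conj_le hp
  have h1 := C.exp_S (hg x (mem_zpowers x))
  rw [conj_pow] at h1
  rw [mul_inv_eq_one] at h1
  have h2 : x ^ 3 = 1 := mul_eq_left.1 h1
  have h3 := orderOf_dvd_of_pow_eq_one h2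
  rw [h] at h3
  omega

/-- `S` is not abelian -/
theorem exists_ne (C : Cfg A B E F S z) : ∃ e ∈ E, ∃ s ∈ S, e ∉ zpowers z ∧ s * e ≠ e * s := by
  obtain ⟨e, he, hez⟩ := C.exists_e
  obtain ⟨s, hs, hsE⟩ : ∃ s ∈ S, s ∉ E := by
    by_contra h
    push Not at h
    have h1 : S ≤ E := h
    have hfE : Finite E := Nat.finite_of_card_ne_zero (by rw [C.sA.cardE]; norm_num)
    have h2 := card_dvd_of_le h1
    rw [C.cardS, C.sA.cardE] at h2
    omega
  refine ⟨e, he, s, hs, hez, fun h => hsE ?_⟩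
  exact C.mem_E_of_comm (C.hSA hs) (C.comm_z hs) he hez h

end Cfg

end Cfsg.Agent.H441.GLAmal
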