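import Cfsg.Prelude.Def_Solvable
import Cfsg.Agent.Lib.Cores
import Cfsg.Agent.H441.GLAmal.Norm

/-!
# The configuration from the hypotheses of the recognition theorem
-/

set_option autoImplicit false

namespace Cfsg.Agent.H441.GLAmal.Setup

open Subgroup Cfsg.Agent.H441.GLAmal

variable {G : Type*} [Group G] [Finite G]

theorem card_gl : Nat.card (GL (Fin 2) (ZMod 3)) = 48 := by
  have : Fact (Nat.Prime 3) := ⟨Nat.prime_three⟩
  rw [Matrix.card_GL_field, Fin.prod_univ_two, ZMod.card]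
  norm_num

theorem side_of {A : Subgroup G} (eA : A ⧸ Cfsg.pCore 3 A ≃* GL (Fin 2) (ZMod 3))
    (hOA : IsMulCommutative (Cfsg.pCore 3 A) ∧ (∀ x ∈ Cfsg.pCore 3 A, x ^ 3 = 1) ∧ Nat.card (Cfsg.pCore 3 A) = 9 ∧
      Subgroup.centralizer ((Cfsg.pCore 3 A : Subgroup A) : Set A) = Cfsg.pCore 3 A) :
    Side A ((Cfsg.pCore 3 A).map A.subtype) where
  le := map_subtype_le _
  conj_mem := by
    rintro a ha _ ⟨x, hx, rfl⟩
    exact ⟨⟨a, ha⟩ * x * ⟨a, ha⟩⁻¹, (inferInstance : (Cfsg.pCore 3 A).Normal).conj_mem x hx ⟨a, ha⟩, rfl⟩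
  comm := by
    rintro _ ⟨x, hx, rfl⟩ _ ⟨y, hy, rfl⟩
    have h1 := hOA.1.is_comm.comm ⟨x, hx⟩ ⟨y, hy⟩
    have h2 := congrArg Subtype.val h1
    exact congrArg Subtype.val h2
  cube := by
    rintro _ ⟨x, hx, rfl⟩
    rw [← map_pow, hOA.2.1 x hx, map_one]
  cardE := by rw [card_map_of_injective A.subtype_injective, hOA.2.2.1]
  cent := by
    intro a ha h
    refine ⟨⟨a, ha⟩, ?_, rfl⟩
    rw [SetLike.mem_coe, ← hOA.2.2.2, mem_centralizer_iff]
    intro x hx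
    exact Subtype.ext (h _ ⟨x, hx, rfl⟩).symm
  cardA := by
    have h1 := card_eq_card_quotient_mul_card_subgroup (Cfsg.pCore 3 A)
    rw [hOA.2.2.1, Nat.card_congr eA.toEquiv, card_gl] at h1
    exact h1

theorem nat432 : ∀ n k : ℕ, 3 ^ n * k = 432 → ¬ 3 ∣ k → 3 ^ n = 27 := by
  intro n k h h3
  have hn : n ≤ 5 := by
    by_contra hn
    push Not at hn
    have h1 : 3 ^ 6 ≤ 3 ^ n := Nat.pow_le_pow_right (by norm_num) hn
    have hk : 1 ≤ k := by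
      rcases Nat.eq_zero_or_pos k with rfl | h'
      · simp at h
      · exact h'
    have : 3 ^ 6 * 1 ≤ 3 ^ n * k := Nat.mul_le_mul h1 hk
    omega
  interval_cases n <;> omega

theorem card_S {A B : Subgroup G} (hA : Nat.card A = 432) (h : ¬ 3 ∣ ((A ⊓ B).subgroupOf A).index)
    (S : Sylow 3 ↥(A ⊓ B)) : Nat.card ((S : Subgroup ↥(A ⊓ B)).map (A ⊓ B).subtype) = 27 := by
  have : Fact (Nat.Prime 3) := ⟨Nat.prime_three⟩
  rw [card_map_of_injective (A ⊓ B).subtype_injective]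
  obtain ⟨n, hn⟩ := IsPGroup.iff_card.1 S.isPGroup'
  rw [hn]
  have h1 := (S : Subgroup ↥(A ⊓ B)).card_mul_index
  have h2 := ((A ⊓ B).subgroupOf A).card_mul_index
  have h3 : Nat.card ((A ⊓ B).subgroupOf A) = Nat.card ↥(A ⊓ B) :=
    Nat.card_congr (subgroupOfEquivOfLe inf_le_left).toEquiv
  rw [h3, ← h1, hn, hA, mul_assoc] at h2
  refine nat432 n _ h2 ?_
  rw [Nat.Prime.dvd_mul Nat.prime_three]
  rintro (h4 | h4)
  · exact S.not_dvd_index h4
  · exact h h4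

theorem le_S {A S : Subgroup G} (hA : Nat.card A = 432) (hS : Nat.card S = 27) (hSA : S ≤ A) :
    (Cfsg.pCore 3 A).map A.subtype ≤ S := by
  have : Fact (Nat.Prime 3) := ⟨Nat.prime_three⟩
  have h1 : Nat.card (S.subgroupOf A) = 27 := by
    rw [← hS]; exact Nat.card_congr (subgroupOfEquivOfLe hSA).toEquiv
  have hp : IsPGroup 3 (S.subgroupOf A) := IsPGroup.of_card (n := 3) (by rw [h1]; norm_num)
  obtain ⟨P, hP⟩ := hp.exists_le_sylow
  obtain ⟨n, hn⟩ := IsPGroup.iff_card.1 P.isPGroup'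
  have h2 := (P : Subgroup A).card_mul_index
  rw [hn, hA] at h2
  have h3 := nat432 n _ h2 P.not_dvd_index
  have h4 : S.subgroupOf A = (P : Subgroup A) := eq_of_le_of_card_ge hP (by rw [hn, h3, h1])
  have h5 : Cfsg.pCore 3 A ≤ S.subgroupOf A := by
    rw [h4]
    refine sSup_le ?_
    rintro N ⟨hN, hp⟩
    have := hN
    have h1 : IsPGroup 3 ↥((P : Subgroup A) ⊔ N) := P.2.to_sup_of_normal_right hp
    have h2 : (P : Subgroup A) ⊔ N = P := P.3 h1 le_sup_left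
    rw [← h2]
    exact le_sup_right
  rintro _ ⟨x, hx, rfl⟩
  exact h5 hx

theorem map_conj {A E : Subgroup G} (h : Side A E) {a : G} (ha : a ∈ A) :
    E.map (MulAut.conj a).toMonoidHom = E := by
  apply le_antisymm
  · rintro _ ⟨x, hx, rfl⟩
    exact h.conj_mem a ha x hx
  · intro x hx
    refine ⟨a⁻¹ * x * a⁻¹⁻¹, h.conj_mem a⁻¹ (inv_mem ha) x hx, ?_⟩
    show a * (a⁻¹ * x * a⁻¹⁻¹) * a⁻¹ = x
    group

theorem main (A B : Subgroup G)
    (hSylA : ¬ 3 ∣ ((A ⊓ B).subgroupOf A).index)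
    (hcore : ∀ N : Subgroup G, N ≤ A ⊓ B → (∀ a ∈ A, N.map (MulAut.conj a).toMonoidHom = N) →
      (∀ b ∈ B, N.map (MulAut.conj b).toMonoidHom = N) → N = ⊥)
    (eA : A ⧸ Cfsg.pCore 3 A ≃* GL (Fin 2) (ZMod 3)) (eB : B ⧸ Cfsg.pCore 3 B ≃* GL (Fin 2) (ZMod 3))
    (hOA : IsMulCommutative (Cfsg.pCore 3 A) ∧ (∀ x ∈ Cfsg.pCore 3 A, x ^ 3 = 1) ∧ Nat.card (Cfsg.pCore 3 A) = 9 ∧
      Subgroup.centralizer ((Cfsg.pCore 3 A : Subgroup A) : Set A) = Cfsg.pCore 3 A)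
    (hOB : IsMulCommutative (Cfsg.pCore 3 B) ∧ (∀ x ∈ Cfsg.pCore 3 B, x ^ 3 = 1) ∧ Nat.card (Cfsg.pCore 3 B) = 9 ∧
      Subgroup.centralizer ((Cfsg.pCore 3 B : Subgroup B) : Set B) = Cfsg.pCore 3 B)
    (S : Sylow 3 ↥(A ⊓ B)) (Z : Subgroup G)
    (hZ : Z = ((S : Subgroup ↥(A ⊓ B)) ⊓ Subgroup.centralizer ((S : Subgroup ↥(A ⊓ B)) : Set ↥(A ⊓ B))).map (A ⊓ B).subtype)
    (hNZ : Subgroup.normalizer (Z : Set G) ≤ A ⊓ B) :
    ∃ z, Cfg A B ((Cfsg.pCore 3 A).map A.subtype) ((Cfsg.pCore 3 B).map B.subtype)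
      ((S : Subgroup ↥(A ⊓ B)).map (A ⊓ B).subtype) z := by
  have sA := side_of eA hOA
  have sB := side_of eB hOB
  have cS := card_S sA.cardA hSylA S
  have hSle : (S : Subgroup ↥(A ⊓ B)).map (A ⊓ B).subtype ≤ A ⊓ B := map_subtype_le _
  have hES := le_S sA.cardA cS (hSle.trans inf_le_left)
  have hFS := le_S sB.cardA cS (hSle.trans inf_le_right)
  have hne : (Cfsg.pCore 3 A).map A.subtype ≠ (Cfsg.pCore 3 B).map B.subtype := by
    intro h
    have h1 := hcore ((Cfsg.pCore 3 A).map A.subtype) (hES.trans hSle) (fun a ha => map_conj sA ha)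
      (fun b hb => by rw [h]; exact map_conj sB hb)
    have h2 := sA.cardE
    rw [h1, card_bot] at h2
    exact absurd h2 (by norm_num)
  obtain ⟨z, hzE, hzF, hz1⟩ : ∃ z, z ∈ (Cfsg.pCore 3 A).map A.subtype ∧ z ∈ (Cfsg.pCore 3 B).map B.subtype ∧
      z ≠ 1 := by
    by_contra hcon
    push Not at hcon
    have hd : Disjoint ((Cfsg.pCore 3 A).map A.subtype) ((Cfsg.pCore 3 B).map B.subtype) := by
      rw [disjoint_iff, eq_bot_iff]
      rintro x ⟨h1, h2⟩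
      exact hcon x h1 h2
    have h1 := mul_injective_of_disjoint hd
    have h2 : Function.Injective (fun p : ↥((Cfsg.pCore 3 A).map A.subtype) × ↥((Cfsg.pCore 3 B).map B.subtype) =>
        (⟨p.1.1 * p.2.1, mul_mem (hES p.1.2) (hFS p.2.2)⟩ : ↥((S : Subgroup ↥(A ⊓ B)).map (A ⊓ B).subtype))) := by
      intro p q hpq
      exact h1 (congrArg Subtype.val hpq)
    have h3 := Nat.card_le_card_of_injective _ h2
    rw [Nat.card_prod, sA.cardE, sB.cardE, cS] at h3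
    exact absurd h3 (by norm_num)
  have P : Pre A B ((Cfsg.pCore 3 A).map A.subtype) ((Cfsg.pCore 3 B).map B.subtype)
      ((S : Subgroup ↥(A ⊓ B)).map (A ⊓ B).subtype) z :=
    ⟨sA, sB, hne, hES, hFS, hSle.trans inf_le_left, hSle.trans inf_le_right, cS, hzE, hzF, hz1⟩
  refine ⟨z, P, ?_⟩
  have hZz : Z = zpowers z := by
    rw [hZ]
    apply le_antisymm
    · rintro _ ⟨x, ⟨hx1, hx2⟩, rfl⟩
      refine P.center_S ⟨x, hx1, rfl⟩ ?_
      rintro _ ⟨y, hy, rfl⟩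
      exact (congrArg Subtype.val ((mem_centralizer_iff.1 hx2) y hy)).symm
    · rw [zpowers_le]
      obtain ⟨x, hx, hxz⟩ := hES hzE
      refine ⟨x, ⟨hx, mem_centralizer_iff.2 ?_⟩, hxz⟩
      intro y hy
      apply Subtype.ext
      have h1 := P.comm_z (s := (A ⊓ B).subtype y) ⟨y, hy, rfl⟩
      rw [← hxz] at h1
      exact h1
  rw [← hZz]
  exact hNZ

end Cfsg.Agent.H441.GLAmal.Setup
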