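import Cfsg.Agent.H441.GLAmal.Norm

/-!
# `3² : GL₂(3)` amalgams: the group is simple; elements of order 3 do not commute with perfect groups of order
divisible by 3; elements of order 5 do not commute with 3-central elements
-/

set_option autoImplicit false

namespace Cfsg.Agent.H441.GLAmal

open Subgroup

variable {G : Type*} [Group G]

namespace Cfg

variable {A B E F S : Subgroup G} {z : G}

theorem mem_of_inv {K : Subgroup G} {x : G} (h : x⁻¹ ∈ K) : x ∈ K := inv_mem_iff.1 h

/-- no normal 3'-subgroups -/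
theorem normal_eq_bot [Finite G] (C : Cfg A B E F S z) (N : Subgroup G) [hN : N.Normal]
    (h3 : ¬ 3 ∣ Nat.card N) : N = ⊥ := by
  have : Fact (Nat.Prime 3) := ⟨Nat.prime_three⟩
  by_contra hne
  have hA : Cfsg.IsElementaryAbelian 3 E := by
    refine ⟨⟨⟨fun a b => Subtype.ext (C.sA.comm a a.2 b b.2)⟩⟩, fun a ha => C.sA.cube a ha⟩
  have hA2 : 3 ^ 2 ≤ Nat.card E := by rw [C.sA.cardE]; norm_num
  have hAM : E ≤ normalizer (N : Set G) := by rw [normalizer_eq_top]; exact le_top
  obtain ⟨a, ha, ha1, hn⟩ := Cfsg.Agent.S1287.exists_centralizer_not_le hA hA2 h3 hAM (N := ⊥)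
    (fun h => hne (le_bot_iff.1 h))
  obtain ⟨x, hx, hx1⟩ := SetLike.not_le_iff_exists.1 hn
  obtain ⟨g, hg, hgz⟩ := C.exists_conj ha ha1
  -- conjugate to `z`
  let y := g⁻¹ * x * g
  have hyN : y ∈ N := by
    have := hN.conj_mem x hx.1 g⁻¹
    simpa [y] using this
  have hxa : x * a = a * x := mem_centralizer_singleton_iff.1 hx.2
  have hyz : y * z = z * y := by
    have h1 : z = g⁻¹ * a * g := by rw [← hgz]; group
    rw [h1]
    calc g⁻¹ * x * g * (g⁻¹ * a * g) = g⁻¹ * (x * a) * g := by group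
      _ = g⁻¹ * (a * x) * g := by rw [hxa]
      _ = g⁻¹ * a * g * (g⁻¹ * x * g) := by group
  have hyA := (C.cent_le hyz).1
  have hEN : ∀ w ∈ E, w ∈ N → w = 1 := by
    intro w hw hwN
    by_contra hw1
    have h4 := card_zpowers_three (C.sA.cube w hw) hw1
    exact h3 (h4 ▸ card_dvd_of_le (zpowers_le.2 hwN))
  have hyE : y ∈ E := by
    apply C.sA.cent y hyA
    intro e he
    have h1 : y * e * y⁻¹ * e⁻¹ ∈ E := mul_mem (C.sA.conj_mem y hyA e he) (inv_mem he)
    have h2 : y * e * y⁻¹ * e⁻¹ ∈ N := by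
      have := hN.conj_mem y⁻¹ (inv_mem hyN) e
      have h3 : y * e * y⁻¹ * e⁻¹ = y * (e * y⁻¹ * e⁻¹) := by group
      rw [h3]
      exact mul_mem hyN this
    have h5 := hEN _ h1 h2
    rw [mul_inv_eq_one] at h5
    exact mul_inv_eq_iff_eq_mul.1 h5
  have hy1 := hEN _ hyE hyN
  apply hx1
  rw [mem_bot]
  have h6 : g * y * g⁻¹ = x := by simp only [y]; group
  rw [← h6, hy1]
  group

/-- a nontrivial element of `S` in a normal subgroup forces `z` into it -/
theorem z_mem (C : Cfg A B E F S z) {N : Subgroup G} [hN : N.Normal] {s : G} (hs : s ∈ S) (hs1 : s ≠ 1)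
    (hsN : s ∈ N) : z ∈ N := by
  have hz : ∀ u ∈ zpowers z, u ≠ 1 → u ∈ N → z ∈ N := by
    intro u hu hu1 huN
    rcases C.mem_z hu with h | h | h
    · exact absurd h hu1
    · exact h ▸ huN
    · exact mem_of_inv (h ▸ huN)
  by_cases h : ∀ w ∈ S, s * w = w * s
  · exact hz s (C.center_S hs h) hs1 hsN
  · push Not at h
    obtain ⟨w, hw, hne⟩ := h
    apply hz (s * w * s⁻¹ * w⁻¹) (C.comm_mem hs hw)
    · intro h1
      rw [mul_inv_eq_one] at h1
      exact hne (mul_inv_eq_iff_eq_mul.1 h1)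
    · have h2 := hN.conj_mem s⁻¹ (inv_mem hsN) w
      have h3 : s * w * s⁻¹ * w⁻¹ = s * (w * s⁻¹ * w⁻¹) := by group
      rw [h3]
      exact mul_mem hsN h2

/-- an element inverting `E` in every normal subgroup containing `S` -/
theorem exists_inv (C : Cfg A B E F S z) {N : Subgroup G} [hN : N.Normal] (hSN : S ≤ N) :
    ∃ t ∈ N, t ∈ A ∧ ∀ e ∈ E, t * e * t⁻¹ = e⁻¹ := by
  obtain ⟨e, he, s0, hs0, hez, hne⟩ := C.exists_ne
  -- normalise `s`
  obtain ⟨s, hs, hse⟩ : ∃ s ∈ S, s * e * s⁻¹ = z * e := by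
    have h1 := C.comm_mem hs0 (C.hES he)
    rcases C.mem_z h1 with h | h | h
    · exfalso
      rw [mul_inv_eq_one] at h
      exact hne (mul_inv_eq_iff_eq_mul.1 h)
    · exact ⟨s0, hs0, mul_inv_eq_iff_eq_mul.1 h⟩
    · refine ⟨s0⁻¹, inv_mem hs0, ?_⟩
      have h2 : s0 * e * s0⁻¹ = z⁻¹ * e := mul_inv_eq_iff_eq_mul.1 h
      have h3 := C.comm_z hs0
      have h4 : s0⁻¹ * z = z * s0⁻¹ := by
        calc s0⁻¹ * z = s0⁻¹ * (z * s0) * s0⁻¹ := by group
          _ = s0⁻¹ * (s0 * z) * s0⁻¹ := by rw [h3]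
          _ = z * s0⁻¹ := by group
      have h5 : e = s0⁻¹ * (z⁻¹ * e) * s0 := by rw [← h2]; group
      calc s0⁻¹ * e * s0⁻¹⁻¹ = s0⁻¹ * (z * (z⁻¹ * e)) * s0 := by group
        _ = (s0⁻¹ * z) * (z⁻¹ * e) * s0 := by group
        _ = z * s0⁻¹ * (z⁻¹ * e) * s0 := by rw [h4]
        _ = z * (s0⁻¹ * (z⁻¹ * e) * s0) := by group
        _ = z * e := by rw [← h5]
  have hsz : s * z * s⁻¹ = z := by rw [C.comm_z hs, mul_inv_cancel_right]
  have hze : z * e = e * z := C.sA.comm z C.hzE e he
  -- the second transvection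
  have he1 : e ≠ 1 := fun h => hez (h ▸ one_mem _)
  have hzi : z⁻¹ ∉ zpowers e := by
    intro h
    have h1 : z ∈ zpowers e := mem_of_inv h
    have h2 : zpowers z ≤ zpowers e := zpowers_le.2 h1
    have h3 := card_zpowers_three (C.sA.cube e he) he1
    have hf : Finite (zpowers e) := Nat.finite_of_card_ne_zero (by rw [h3]; norm_num)
    have h4 : zpowers z = zpowers e := eq_of_le_of_card_ge h2 (by rw [h3, C.cardz])
    exact hez (h4 ▸ mem_zpowers e)
  obtain ⟨a, ha, haz, hae⟩ := C.sA.trans C.hzE he C.hz1 hez he (inv_mem C.hzE) he1 hzi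
  let s' := a * s * a⁻¹
  have hs'N : s' ∈ N := hN.conj_mem s (hSN hs) a
  have hsN : s ∈ N := hSN hs
  have h1 : a⁻¹ * e * a = z := by rw [← haz]; group
  have h2 : a⁻¹ * z * a = e⁻¹ := by
    have : z = a * e⁻¹ * a⁻¹ := by
      calc z = (z⁻¹)⁻¹ := (inv_inv z).symm
        _ = (a * e * a⁻¹)⁻¹ := by rw [hae]
        _ = a * e⁻¹ * a⁻¹ := by group
    conv_lhs => rw [this]
    group
  have hs'e : s' * e * s'⁻¹ = e := by
    calc s' * e * s'⁻¹ = a * (s * (a⁻¹ * e * a) * s⁻¹) * a⁻¹ := by simp only [s']; group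
      _ = e := by rw [h1, hsz, haz]
  have hs'z : s' * z * s'⁻¹ = z * e⁻¹ := by
    calc s' * z * s'⁻¹ = a * (s * (a⁻¹ * z * a) * s⁻¹) * a⁻¹ := by simp only [s']; group
      _ = a * (s * e * s⁻¹)⁻¹ * a⁻¹ := by rw [h2]; group
      _ = (a * e * a⁻¹)⁻¹ * (a * z * a⁻¹)⁻¹ := by rw [hse]; group
      _ = z * e⁻¹ := by rw [haz, hae, inv_inv]
  let w := s * s' * s
  have hwN : w ∈ N := mul_mem (mul_mem hsN hs'N) hsN
  have hwz : w * z * w⁻¹ = e⁻¹ := by
    calc w * z * w⁻¹ = s * (s' * (s * z * s⁻¹) * s'⁻¹) * s⁻¹ := by simp only [w]; group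
      _ = s * (z * e⁻¹) * s⁻¹ := by rw [hsz, hs'z]
      _ = (s * z * s⁻¹) * (s * e * s⁻¹)⁻¹ := by group
      _ = e⁻¹ := by rw [hsz, hse, hze]; group
  have hwe : w * e * w⁻¹ = z := by
    calc w * e * w⁻¹ = s * (s' * (s * e * s⁻¹) * s'⁻¹) * s⁻¹ := by simp only [w]; group
      _ = s * ((s' * z * s'⁻¹) * (s' * e * s'⁻¹)) * s⁻¹ := by rw [hse]; group
      _ = s * z * s⁻¹ := by rw [hs'z, hs'e]; group
      _ = z := hsz
  have hsA := C.hSA hs
  refine ⟨w * w, mul_mem hwN hwN, ?_, ?_⟩
  · have : w ∈ A := mul_mem (mul_mem hsA (mul_mem (mul_mem ha hsA) (inv_mem ha))) hsA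
    exact mul_mem this this
  · have hcl := closure_eq C.sA.cardE C.sA.cube C.hzE he C.hz1 hez
    -- the set of elements inverted by `w * w` is a subgroup of the abelian group `E`
    let K : Subgroup G :=
      { carrier := {x | x ∈ E ∧ w * w * x * (w * w)⁻¹ = x⁻¹}
        mul_mem' := by
          rintro x y ⟨hx, hx2⟩ ⟨hy, hy2⟩
          refine ⟨mul_mem hx hy, ?_⟩
          calc w * w * (x * y) * (w * w)⁻¹ = (w * w * x * (w * w)⁻¹) * (w * w * y * (w * w)⁻¹) := by group
            _ = (y * x)⁻¹ := by rw [hx2, hy2, mul_inv_rev]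
            _ = (x * y)⁻¹ := by rw [C.sA.comm x hx y hy]
        one_mem' := ⟨one_mem _, by group⟩
        inv_mem' := by
          rintro x ⟨hx, hx2⟩
          refine ⟨inv_mem hx, ?_⟩
          calc w * w * x⁻¹ * (w * w)⁻¹ = (w * w * x * (w * w)⁻¹)⁻¹ := by
                simp only [mul_inv_rev, inv_inv, mul_assoc]
            _ = x⁻¹⁻¹ := by rw [hx2] }
    have hK : closure {z, e} ≤ K := by
      rw [closure_le]
      rintro x (rfl | rfl)
      · refine ⟨C.hzE, ?_⟩
        calc w * w * x * (w * w)⁻¹ = w * (w * x * w⁻¹) * w⁻¹ := by group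
          _ = (w * e * w⁻¹)⁻¹ := by rw [hwz]; group
          _ = x⁻¹ := by rw [hwe]
      · refine ⟨he, ?_⟩
        calc w * w * x * (w * w)⁻¹ = w * (w * x * w⁻¹) * w⁻¹ := by group
          _ = x⁻¹ := by rw [hwe, hwz]
    rw [hcl] at hK
    exact fun x hx => (hK hx).2

/-- every nontrivial normal subgroup is the whole group -/
theorem normal_eq_top [Finite G] (C : Cfg A B E F S z) (N : Subgroup G) [hN : N.Normal] (hne : N ≠ ⊥) : N = ⊤ := by
  have : Fact (Nat.Prime 3) := ⟨Nat.prime_three⟩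
  have h3 : 3 ∣ Nat.card N := by
    by_contra h
    exact hne (C.normal_eq_bot N h)
  have hz : z ∈ N := by
    obtain ⟨⟨a, ha⟩, hao⟩ := exists_prime_orderOf_dvd_card' 3 h3
    have hao' : orderOf a = 3 := by
      rw [← hao]
      exact (orderOf_injective N.subtype N.subtype_injective ⟨a, ha⟩)
    have hp : IsPGroup 3 (zpowers a) := IsPGroup.of_card (n := 1) (by rw [Nat.card_zpowers, hao']; norm_num)
    obtain ⟨g, hg⟩ := C.exists_conj_le hp
    refine C.z_mem (hg a (mem_zpowers a)) ?_ (hN.conj_mem a ha g)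
    intro h
    rw [mul_inv_eq_one] at h
    have := mul_eq_left.1 h
    rw [this, orderOf_one] at hao'
    omega
  have hE : E ≤ N := by
    intro e he
    by_cases h1 : e = 1
    · exact h1 ▸ one_mem _
    obtain ⟨a, -, ha⟩ := C.exists_conj he h1
    rw [← ha]
    exact hN.conj_mem z hz a
  have hF : F ≤ N := by
    intro e he
    by_cases h1 : e = 1
    · exact h1 ▸ one_mem _
    obtain ⟨a, -, ha⟩ := C.symm.exists_conj he h1
    rw [← ha]
    exact hN.conj_mem z hz a
  have hSN : S ≤ N := by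
    rw [← C.sup_eq]
    exact sup_le hE hF
  obtain ⟨t, htN, htA, ht⟩ := C.exists_inv hSN
  obtain ⟨t', htN', htB, ht'⟩ := C.symm.exists_inv hSN
  -- `N_G(⟨z⟩) ≤ N`
  have htn : t ∈ normalizer (zpowers z : Set G) := C.mem_norm_iff.2 (Or.inr (ht z C.hzE))
  have htn' : t' ∈ normalizer (zpowers z : Set G) := C.mem_norm_iff.2 (Or.inr (ht' z C.hzF))
  have hle : normalizer (zpowers z : Set G) ≤ N := by
    have hM : N ⊓ normalizer (zpowers z : Set G) = normalizer (zpowers z : Set G) := by
      apply eq_of_le_of_card_ge inf_le_right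
      rw [C.card_norm]
      have hSM : S ≤ N ⊓ normalizer (zpowers z : Set G) := by
        refine le_inf hSN ?_
        rw [← C.norm_eq]
        exact le_normalizer
      have h1 : Nat.card (N ⊓ normalizer (zpowers z : Set G) : Subgroup G) ∣ 108 :=
        C.card_norm ▸ card_dvd_of_le inf_le_right
      have h2 : 27 ∣ Nat.card (N ⊓ normalizer (zpowers z : Set G) : Subgroup G) :=
        C.cardS ▸ card_dvd_of_le hSM
      obtain ⟨k, hk⟩ := h2
      -- three cosets
      have hts : t ∉ S := by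
        intro h
        have := C.comm_z h
        have h5 := ht z C.hzE
        rw [this, mul_inv_cancel_right] at h5
        exact C.zinv_ne h5.symm
      have hts' : t' ∉ S := by
        intro h
        have := C.comm_z h
        have h5 := ht' z C.hzF
        rw [this, mul_inv_cancel_right] at h5
        exact C.zinv_ne h5.symm
      have htt : t⁻¹ * t' ∉ S := by
        intro h
        obtain ⟨e, he, s0, hs0, hez, hne⟩ := C.exists_ne
        -- an element of `F` not commuting with `e`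
        obtain ⟨f, hf, hef⟩ : ∃ f ∈ F, f * e ≠ e * f := by
          by_contra hcon
          push Not at hcon
          apply hne
          have h6 : E ⊔ F ≤ centralizer {e} := by
            rw [sup_le_iff]
            exact ⟨fun x hx => mem_centralizer_singleton_iff.2 (C.sA.comm x hx e he),
              fun x hx => mem_centralizer_singleton_iff.2 (hcon x hx)⟩
          rw [C.sup_eq] at h6
          exact mem_centralizer_singleton_iff.1 (h6 hs0)
        -- `c = [e, f]`
        have hc := C.comm_mem (C.hES he) (C.hFS hf)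
        have hcS : e * f * e⁻¹ * f⁻¹ ∈ S := (zpowers_le.2 (C.hES C.hzE)) hc
        have hcen : ∀ w ∈ S, w * (e * f * e⁻¹ * f⁻¹) = (e * f * e⁻¹ * f⁻¹) * w := by
          intro w hw
          obtain ⟨j, hj⟩ := hc
          have hj : z ^ j = e * f * e⁻¹ * f⁻¹ := hj
          rw [← hj]
          have h2 : Commute w z := C.comm_z hw
          exact (h2.zpow_right j).eq
        have hcE : e * f * e⁻¹ * f⁻¹ ∈ F := by
          rcases C.mem_z hc with h | h | h
          · rw [h]; exact one_mem _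
          · rw [h]; exact C.hzF
          · rw [h]; exact inv_mem C.hzF
        have h7 := ht' _ hcE
        -- the action of `t'` on `e`
        obtain ⟨k1, hk1⟩ := C.comm_mem h (C.hES he)
        have hk1 : z ^ k1 = t⁻¹ * t' * e * (t⁻¹ * t')⁻¹ * e⁻¹ := hk1
        have h8 : t' * e * t'⁻¹ = z ^ (-k1) * e⁻¹ := by
          have h9 : t' * e * t'⁻¹ = t * ((t⁻¹ * t' * e * (t⁻¹ * t')⁻¹ * e⁻¹) * e) * t⁻¹ := by group
          rw [h9, ← hk1]
          have h10 : t * (z ^ k1 * e) * t⁻¹ = (t * z ^ k1 * t⁻¹) * (t * e * t⁻¹) := by group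
          rw [h10, ← conj_zpow, ht z C.hzE, ht e he, inv_zpow, zpow_neg]
        have h11 : t' * f * t'⁻¹ = f⁻¹ := ht' f hf
        have hzc : ∀ w ∈ S, z ^ (-k1) * w = w * z ^ (-k1) := by
          intro w hw
          have h2 : Commute w z := C.comm_z hw
          exact (h2.zpow_right _).eq.symm
        have h12 : t' * (e * f * e⁻¹ * f⁻¹) * t'⁻¹ = e⁻¹ * f⁻¹ * e * f := by
          calc t' * (e * f * e⁻¹ * f⁻¹) * t'⁻¹
              = (t' * e * t'⁻¹) * (t' * f * t'⁻¹) * (t' * e * t'⁻¹)⁻¹ * (t' * f * t'⁻¹)⁻¹ := by group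
            _ = (z ^ (-k1) * e⁻¹) * f⁻¹ * (z ^ (-k1) * e⁻¹)⁻¹ * f := by rw [h8, h11, inv_inv]
            _ = z ^ (-k1) * (e⁻¹ * f⁻¹ * e) * (z ^ (-k1))⁻¹ * f := by group
            _ = (e⁻¹ * f⁻¹ * e) * z ^ (-k1) * (z ^ (-k1))⁻¹ * f := by
                rw [hzc _ (mul_mem (mul_mem (inv_mem (C.hES he)) (inv_mem (C.hFS hf))) (C.hES he))]
            _ = e⁻¹ * f⁻¹ * e * f := by group
        have h13 : e⁻¹ * f⁻¹ * e * f = e * f * e⁻¹ * f⁻¹ := by
          have h14 : e * f = (e * f * e⁻¹ * f⁻¹) * (f * e) := by group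
          calc e⁻¹ * f⁻¹ * e * f = e⁻¹ * f⁻¹ * (e * f) := by group
            _ = (e⁻¹ * f⁻¹) * (e * f * e⁻¹ * f⁻¹) * (f * e) := by conv_lhs => rw [h14, ← mul_assoc]
            _ = (e * f * e⁻¹ * f⁻¹) * (e⁻¹ * f⁻¹) * (f * e) := by
                rw [hcen _ (mul_mem (inv_mem (C.hES he)) (inv_mem (C.hFS hf)))]
            _ = e * f * e⁻¹ * f⁻¹ := by group
        rw [h12, h13] at h7
        rcases C.mem_z hc with h | h | h
        · rw [mul_inv_eq_one] at h
          exact hef (mul_inv_eq_iff_eq_mul.1 h).symm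
        · rw [h] at h7
          exact C.zinv_ne h7.symm
        · rw [h, inv_inv] at h7
          exact C.zinv_ne h7
      have hk2 : 3 ≤ k := by
        -- injective map `Fin 3 × S → M`
        let M := N ⊓ normalizer (zpowers z : Set G)
        let g : Fin 3 → G := ![1, t, t']
        have hg : ∀ i, g i ∈ M := by
          intro i
          fin_cases i
          · exact one_mem _
          · exact ⟨htN, htn⟩
          · exact ⟨htN', htn'⟩
        have hinj : Function.Injective (fun p : Fin 3 × S => (⟨g p.1 * p.2, mul_mem (hg p.1) (hSM p.2.2)⟩ : M)) := by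
          rintro ⟨i, s⟩ ⟨j, s'⟩ h
          have h1 : g i * s = g j * s' := congrArg (fun q : M => (q : G)) h
          have h2 : (g i)⁻¹ * g j ∈ S := by
            have : (g i)⁻¹ * g j = s * (s' : G)⁻¹ := by
              calc (g i)⁻¹ * g j = (g i)⁻¹ * (g j * s') * (s' : G)⁻¹ := by group
                _ = (g i)⁻¹ * (g i * s) * (s' : G)⁻¹ := by rw [h1]
                _ = s * (s' : G)⁻¹ := by group
            rw [this]
            exact mul_mem s.2 (inv_mem s'.2)
          have hij : i = j := by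
            by_contra hij
            fin_cases i <;> fin_cases j <;> simp only [g] at h2 hij <;> simp at h2 hij
            · exact hts h2
            · exact hts' h2
            · exact hts h2
            · exact htt h2
            · exact hts' h2
            · apply htt
              have := inv_mem h2
              simpa using this
          subst hij
          exact Prod.ext rfl (Subtype.ext (mul_left_cancel h1))
        have hcard := Nat.card_le_card_of_injective _ hinj
        have h27 : Nat.card (Fin 3 × S) = 81 := by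
          rw [Nat.card_prod, C.cardS, Nat.card_eq_fintype_card, Fintype.card_fin]
        rw [h27] at hcard
        have hk' : Nat.card M = 27 * k := hk
        rw [hk'] at hcard
        omega
      rw [hk] at h1 ⊢
      have hk3 : 27 * k ≤ 108 := Nat.le_of_dvd (by norm_num) h1
      have hk4 : k ≠ 3 := by
        rintro rfl
        omega
      omega
    rw [← hM]
    exact inf_le_left
  obtain ⟨P, hP⟩ := C.exists_sylow
  have hfr := Sylow.normalizer_sup_eq_top' P (N := N) (by rw [hP]; exact hSN)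
  have hPn : normalizer ((P : Subgroup G) : Set G) ≤ N := by
    rw [hP, C.norm_eq]
    exact hle
  rw [eq_top_iff, ← hfr]
  exact sup_le hPn le_rfl

/-- **`G` is simple** -/
theorem isSimple [Finite G] (C : Cfg A B E F S z) : IsSimpleGroup G where
  exists_pair_ne := ⟨z, 1, C.hz1⟩
  eq_bot_or_eq_top_of_normal N hN := by
    by_cases h : N = ⊥
    · exact Or.inl h
    · exact Or.inr (C.normal_eq_top N h)

/-- `G` is not commutative -/
theorem not_comm (C : Cfg A B E F S z) : ∃ a b : G, a * b ≠ b * a := by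
  obtain ⟨e, -, s, -, -, h⟩ := C.exists_ne
  exact ⟨s, e, h⟩

end Cfg

end Cfsg.Agent.H441.GLAmal
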